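import Cfsg.Agent.Chars.Eigen
import Mathlib.LinearAlgebra.Matrix.SpecialLinearGroup
import Mathlib.Algebra.CharP.Two
import Mathlib.FieldTheory.Finite.Basic

/-!
The involutions of the special linear group of degree two in characteristic two.
-/

set_option autoImplicit false

namespace Cfsg.Agent.Blocks.TwicePrime

open Matrix

variable {F : Type*} [Field F] [CharP F 2]

local notation "SL" => Matrix.SpecialLinearGroup (Fin 2) F

theorem sl_ext {g h : SL} (h00 : g.1 0 0 = h.1 0 0) (h01 : g.1 0 1 = h.1 0 1)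
    (h10 : g.1 1 0 = h.1 1 0) (h11 : g.1 1 1 = h.1 1 1) : g = h := by
  apply Matrix.SpecialLinearGroup.ext
  intro i j
  fin_cases i <;> fin_cases j <;> assumption

theorem sl_det (g : SL) : g.1 0 0 * g.1 1 1 - g.1 0 1 * g.1 1 0 = 1 := by
  have h := g.2
  rwa [Matrix.det_fin_two] at h

theorem sl_mul (g h : SL) (i j : Fin 2) :
    (g * h).1 i j = g.1 i 0 * h.1 0 j + g.1 i 1 * h.1 1 j := by
  rw [Matrix.SpecialLinearGroup.coe_mul, Matrix.mul_apply, Fin.sum_univ_two]

/-- The square is trivial exactly when the diagonal is constant. -/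
theorem sq_eq_one_iff (g : SL) : g * g = 1 ↔ g.1 0 0 = g.1 1 1 := by
  have h2 : (2 : F) = 0 := CharTwo.two_eq_zero
  have hd := sl_det g
  constructor
  · intro h
    have h00 : (g * g).1 0 0 = 1 := by rw [h]; simp
    rw [sl_mul] at h00
    have h11 : (g * g).1 1 1 = 1 := by rw [h]; simp
    rw [sl_mul] at h11
    have h3 : (g.1 0 0 - g.1 1 1) ^ 2 = 0 := by
      linear_combination h00 + h11 - 2 * hd - 2 * (g.1 0 1 * g.1 1 0) * h2
    exact sub_eq_zero.1 (eq_zero_of_pow_eq_zero h3)
  · intro h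
    refine sl_ext ?_ ?_ ?_ ?_ <;> rw [sl_mul] <;>
      simp only [Matrix.SpecialLinearGroup.coe_one, Matrix.one_apply, Fin.isValue, if_true,
        show ((0 : Fin 2) = 1) = False by simp, show ((1 : Fin 2) = 0) = False by simp, if_false]
    · linear_combination hd + g.1 0 0 * h + (g.1 0 1 * g.1 1 0) * h2
    · linear_combination (-(g.1 0 1)) * h + (g.1 0 0 * g.1 0 1) * h2
    · linear_combination (-(g.1 1 0)) * h + (g.1 0 0 * g.1 1 0) * h2
    · linear_combination hd - g.1 1 1 * h + (g.1 0 1 * g.1 1 0) * h2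

theorem offdiag_ne_zero {u : SL} (hu : u * u = 1) (hu1 : u ≠ 1) :
    u.1 0 1 ≠ 0 ∨ u.1 1 0 ≠ 0 := by
  by_contra hc
  push Not at hc
  obtain ⟨hb, hcz⟩ := hc
  have h := (sq_eq_one_iff u).1 hu
  have hd := sl_det u
  rw [hb, hcz, mul_zero, sub_zero, ← h] at hd
  have h3 : (u.1 0 0 - 1) ^ 2 = 0 := by
    linear_combination hd + (1 - u.1 0 0) * (CharTwo.two_eq_zero : (2 : F) = 0)
  have ha : u.1 0 0 = 1 := sub_eq_zero.1 (eq_zero_of_pow_eq_zero h3)
  exact hu1 (sl_ext (by simp [ha]) (by simp [hb]) (by simp [hcz]) (by simp [← h, ha]))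

/-- The centralizer of an involution has exponent two. -/
theorem sq_eq_one_of_commute {u v : SL} (hu : u * u = 1) (hu1 : u ≠ 1) (h : u * v = v * u) :
    v * v = 1 := by
  have ha := (sq_eq_one_iff u).1 hu
  rw [sq_eq_one_iff]
  have h01 : (u * v).1 0 1 = (v * u).1 0 1 := by rw [h]
  have h10 : (u * v).1 1 0 = (v * u).1 1 0 := by rw [h]
  rw [sl_mul, sl_mul] at h01 h10
  rcases offdiag_ne_zero hu hu1 with hb | hc
  · refine sub_eq_zero.1 ((mul_eq_zero.1 ?_).resolve_left hb)
    linear_combination -h01 + v.1 0 1 * ha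
  · refine sub_eq_zero.1 ((mul_eq_zero.1 ?_).resolve_left hc)
    linear_combination h10 + v.1 1 0 * ha

theorem commute_of_commute {u v w : SL} (hu : u * u = 1) (hu1 : u ≠ 1) (hv : u * v = v * u)
    (hw : u * w = w * u) : v * w = w * v := by
  have h1 := sq_eq_one_of_commute hu hu1 hv
  have h2 := sq_eq_one_of_commute hu hu1 hw
  have h3 : (v * w) * (v * w) = 1 :=
    sq_eq_one_of_commute hu hu1 (by rw [← mul_assoc, hv, mul_assoc, hw, ← mul_assoc])
  calc v * w = v⁻¹ * w⁻¹ := by rw [inv_eq_of_mul_eq_one_right h1, inv_eq_of_mul_eq_one_right h2]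
    _ = (w * v)⁻¹ := by rw [_root_.mul_inv_rev]
    _ = w * v := by
      refine inv_eq_of_mul_eq_one_right ?_
      rw [show w * v * (w * v) = v⁻¹ * ((v * w) * (v * w)) * v by group, h3, mul_one, inv_mul_cancel]

variable [Fintype F]

/-- The centralizer of an involution has the order of the field. -/
theorem card_centralizer {u : SL} (hu : u * u = 1) (hu1 : u ≠ 1) :
    Nat.card (Subgroup.centralizer ({u} : Set SL)) = Fintype.card F := by
  have h2 : (2 : F) = 0 := CharTwo.two_eq_zero
  have ha := (sq_eq_one_iff u).1 hu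
  have hd := sl_det u
  rw [← ha] at hd
  set a := u.1 0 0 with hadef
  set b := u.1 0 1 with hbdef
  set c := u.1 1 0 with hcdef
  let f : F → SL := fun l =>
    ⟨!![1 + l * (1 + a), l * b; l * c, 1 + l * (1 + a)], by
      rw [Matrix.det_fin_two_of]
      linear_combination (l ^ 2) * hd + (l + l * a + l ^ 2 * a + l ^ 2) * h2⟩
  have hmem : ∀ l, f l ∈ Subgroup.centralizer ({u} : Set SL) := fun l => by
    rw [Subgroup.mem_centralizer_singleton_iff]
    refine sl_ext ?_ ?_ ?_ ?_ <;> rw [sl_mul, sl_mul] <;>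
      simp only [f, ← ha, ← hbdef, ← hcdef, ← hadef, Matrix.cons_val', Matrix.cons_val_zero,
        Matrix.cons_val_one, Matrix.empty_val', Matrix.cons_val_fin_one, Matrix.of_apply] <;> ring
  have hinj : Function.Injective (fun l => (⟨f l, hmem l⟩ :
      Subgroup.centralizer ({u} : Set SL))) := fun l l' h => by
    have h' : f l = f l' := congrArg Subtype.val h
    have e01 : l * b = l' * b := by
      have := congrArg (fun g : SL => g.1 0 1) h'
      simpa [f] using this
    have e10 : l * c = l' * c := by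
      have := congrArg (fun g : SL => g.1 1 0) h'
      simpa [f] using this
    rcases offdiag_ne_zero hu hu1 with hb | hc
    · exact mul_right_cancel₀ hb e01
    · exact mul_right_cancel₀ hc e10
  have hsurj : Function.Surjective (fun l => (⟨f l, hmem l⟩ :
      Subgroup.centralizer ({u} : Set SL))) := by
    rintro ⟨v, hv⟩
    have hc' : u * v = v * u := (Subgroup.mem_centralizer_singleton_iff.1 hv).symm
    have he := (sq_eq_one_iff v).1 (sq_eq_one_of_commute hu hu1 hc')
    have hdv := sl_det v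
    rw [← he] at hdv
    have h00 : (u * v).1 0 0 = (v * u).1 0 0 := by rw [hc']
    rw [sl_mul, sl_mul] at h00
    have hbc : b * v.1 1 0 = v.1 0 1 * c := by linear_combination h00
    obtain ⟨l, hl1, hl2⟩ : ∃ l : F, v.1 0 1 = l * b ∧ v.1 1 0 = l * c := by
      rcases offdiag_ne_zero hu hu1 with hb | hc
      · refine ⟨v.1 0 1 / b, (div_mul_cancel₀ _ hb).symm, ?_⟩
        rw [eq_comm, div_mul_eq_mul_div, div_eq_iff hb]
        linear_combination -hbc
      · refine ⟨v.1 1 0 / c, ?_, (div_mul_cancel₀ _ hc).symm⟩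
        rw [eq_comm, div_mul_eq_mul_div, div_eq_iff hc]
        linear_combination hbc
    rw [hl1, hl2] at hdv
    have h3 : (v.1 0 0 - (1 + l * (1 + a))) ^ 2 = 0 := by
      linear_combination hdv - l ^ 2 * hd
        + (1 + l + l * a + l ^ 2 * a + l ^ 2 * a ^ 2 - v.1 0 0 * (1 + l * (1 + a))) * h2
    have h4 := sub_eq_zero.1 (eq_zero_of_pow_eq_zero h3)
    refine ⟨l, Subtype.ext (sl_ext ?_ ?_ ?_ ?_)⟩ <;> simp [f, ← he, h4, hl1, hl2]
  rw [← Nat.card_congr (Equiv.ofBijective _ ⟨hinj, hsurj⟩), Nat.card_eq_fintype_card]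

/-- There are at most `q² - 1` involutions. -/
theorem card_involutions_le :
    Nat.card {u : SL // u * u = 1 ∧ u ≠ 1} + 1 ≤ Fintype.card F * Fintype.card F := by
  classical
  have hinj : Function.Injective (fun u : {u : SL // u * u = 1} => (u.1.1 0 1, u.1.1 1 0)) := by
    rintro ⟨u, hu⟩ ⟨v, hv⟩ h
    simp only [Prod.mk.injEq] at h
    have ha := (sq_eq_one_iff u).1 hu
    have hb := (sq_eq_one_iff v).1 hv
    have hdu := sl_det u
    have hdv := sl_det v
    rw [← ha, h.1, h.2] at hdu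
    rw [← hb] at hdv
    have h3 : (u.1 0 0 - v.1 0 0) ^ 2 = 0 := by
      linear_combination hdu - hdv + (v.1 0 0 ^ 2 - u.1 0 0 * v.1 0 0) * (CharTwo.two_eq_zero : (2 : F) = 0)
    have h4 := sub_eq_zero.1 (eq_zero_of_pow_eq_zero h3)
    exact Subtype.ext (sl_ext h4 h.1 h.2 (by rw [← ha, ← hb, h4]))
  have h := Fintype.card_le_of_injective _ hinj
  rw [Fintype.card_prod] at h
  have hlt : Fintype.card {u : SL // u * u = 1 ∧ u ≠ 1} < Fintype.card {u : SL // u * u = 1} :=
    Fintype.card_lt_of_injective_of_notMem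
      (fun u => (⟨u.1, u.2.1⟩ : {u : SL // u * u = 1}))
      (fun u v huv => Subtype.ext (show u.1 = v.1 from congrArg (fun z : {u : SL // u * u = 1} => z.1) huv))
      (b := ⟨1, mul_one 1⟩) (fun ⟨u, hu⟩ => u.2.2 (congrArg Subtype.val hu))
  rw [Nat.card_eq_fintype_card]
  omega

end Cfsg.Agent.Blocks.TwicePrime
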