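import Cfsg.Agent.Blocks.TwicePrime.Order
import Cfsg.Agent.Blocks.TwicePrime.SL2Invol
import Cfsg.Agent.S4700
import Cfsg.Agent.S0494

/-!
A primitive, not doubly transitive group of degree `2p` whose Sylow normalizer has order `2p` is
the alternating group of degree five.
-/

set_option autoImplicit false
set_option linter.style.haveILetI false

namespace Cfsg.Agent.Blocks.TwicePrime

open Cfsg Cfsg.Agent MulAction Screen.BrauerP

universe u

theorem card_psl_two {F : Type} [Field F] [Fintype F] {p : ℕ} (hp : p.Prime) (h3 : 3 < p)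
    (hF : Fintype.card F = p) :
    2 * Nat.card (Matrix.ProjectiveSpecialLinearGroup (Fin 2) F) = p * (p ^ 2 - 1) := by
  have h := S0243.result hF 2 le_rfl
  have hodd := hp.eq_two_or_odd.resolve_left (by omega)
  have hg : Nat.gcd 2 (p - 1) = 2 := Nat.gcd_eq_left (by omega)
  rw [hg, Fin.prod_univ_two] at h
  simp only [Fin.val_zero, Fin.val_one, pow_zero, pow_one] at h
  refine Nat.eq_of_mul_eq_mul_left (show 0 < p - 1 by omega) ?_
  rw [mul_left_comm, h, show p ^ 2 - p = p * (p - 1) by rw [pow_two, Nat.mul_sub, mul_one]]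
  ring

variable {G : Type u} {α : Type*} [Group G] [Fintype G] [Fintype α] [MulAction G α]
  [FaithfulSMul G α]
variable {p : ℕ} [hp : Fact p.Prime] {P : Sylow p G} (H : Hyp G α p P)
include H

/-- An involution of the Sylow normalizer fixes at most two points. -/
theorem Hyp.fixed_le_two {t : G} (ht : t * t = 1) (ht1 : t ≠ 1)
    (htN : t ∈ Subgroup.normalizer ((P : Subgroup G) : Set G)) :
    Nat.card (fixedBy α t) ≤ 2 := by
  classical
  have hp5 := H.hp5
  have hPc : Nat.card (P : Subgroup G) = p := H.card_P
  have hfree : ∀ (y : (P : Subgroup G)) (a : α), y ≠ 1 → y • a ≠ a := by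
    intro y a hy h
    refine H.smul_ne (g := (y : G)) ?_ a h
    have h1 := Subgroup.orderOf_dvd_natCard _ y.2
    rw [hPc] at h1
    rw [((Nat.dvd_prime hp.out).1 h1).resolve_left fun h2 =>
      hy (Subtype.ext (orderOf_eq_one_iff.1 h2))]
  have horb : Nat.card (orbitRel.Quotient (P : Subgroup G) α) = 2 := by
    haveI : Fintype (P : Subgroup G) := Fintype.ofFinite _
    have h := PermGroups.sum_natCard_fixedBy (G := (P : Subgroup G)) (Ω := α)
    rw [Finset.sum_eq_single_of_mem (1 : (P : Subgroup G)) (Finset.mem_univ _) fun y _ hy => ?_,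
      MulAction.fixedBy_one_eq_univ, Nat.card_univ, Nat.card_eq_fintype_card (α := α), H.hα, hPc]
      at h
    · exact (Nat.eq_of_mul_eq_mul_right hp.out.pos h).symm
    · haveI : IsEmpty (fixedBy α y) := ⟨fun a => hfree y a.1 hy a.2⟩
      exact Nat.card_of_isEmpty
  rw [← horb]
  refine Nat.card_le_card_of_injective
    (fun a : fixedBy α t => (Quotient.mk'' a.1 : orbitRel.Quotient (P : Subgroup G) α)) ?_
  rintro ⟨a, ha⟩ ⟨b, hb⟩ h
  obtain ⟨y, hy⟩ := orbitRel_apply.1 (Quotient.eq''.1 h)
  change t • a = a at ha
  change t • b = b at hb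
  change (y : G) • b = a at hy
  rcases eq_or_ne y 1 with h1 | h1
  · refine Subtype.ext ?_
    show a = b
    rw [← hy, h1, OneMemClass.coe_one, one_smul]
  exfalso
  have hy' : t * (y : G) * t⁻¹ ∈ (P : Subgroup G) :=
    (Subgroup.mem_normalizer_iff.1 htN _).1 y.2
  have h2 : (t * (y : G) * t⁻¹) • b = a := by
    rw [mul_smul, mul_smul, inv_smul_eq_iff.2 hb.symm, hy, ha]
  have h3 : t * (y : G) * t⁻¹ = (y : G) := by
    by_contra hne
    refine hfree (y⁻¹ * ⟨_, hy'⟩) b (fun h4 => hne ?_) ?_
    · have := congrArg Subtype.val (inv_mul_eq_one.1 h4)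
      exact this.symm
    · show ((y⁻¹ * ⟨_, hy'⟩ : (P : Subgroup G)) : G) • b = b
      rw [Subgroup.coe_mul, mul_smul, h2, InvMemClass.coe_inv, ← hy, inv_smul_smul]
  have hgen : (P : Subgroup G) = Subgroup.zpowers (y : G) := by
    refine (Subgroup.eq_of_le_of_card_ge (Subgroup.zpowers_le.2 y.2) ?_).symm
    have h5 := Subgroup.orderOf_dvd_natCard _ y.2
    rw [hPc] at h5
    rw [hPc, Nat.card_zpowers, ((Nat.dvd_prime hp.out).1 h5).resolve_left fun h2 =>
      h1 (Subtype.ext (orderOf_eq_one_iff.1 h2))]
  have htC : t ∈ Subgroup.centralizer ((P : Subgroup G) : Set G) := by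
    rw [hgen, Subgroup.zpowers_eq_closure, Subgroup.centralizer_closure,
      Subgroup.mem_centralizer_singleton_iff]
    exact mul_inv_eq_iff_eq_mul.1 h3
  rw [H.centralizer_eq] at htC
  have h6 := Subgroup.orderOf_dvd_natCard _ htC
  rw [hPc] at h6
  have h7 : orderOf t = 2 := orderOf_eq_prime (by rw [sq]; exact ht) ht1
  rw [h7] at h6
  have := (Nat.prime_dvd_prime_iff_eq Nat.prime_two hp.out).1 h6
  omega

theorem main (hnot2 : ¬ IsMultiplyPretransitive G α 2) :
    p = 5 ∧ Nonempty (G ≃* alternatingGroup (Fin 5)) := by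
  classical
  haveI := H.hprim.toIsPretransitive
  have hp5 := H.hp5
  have hcard := H.card_eq hnot2
  have hsimple : IsSimpleGroup G := by
    haveI : Nontrivial G := by
      rw [← Finite.one_lt_card_iff_nontrivial, hcard]
      have : 1 ≤ (p - 1) * (p - 2) := Nat.mul_pos (by omega) (by omega)
      rw [mul_assoc]
      nlinarith
    refine ⟨fun K hK => ?_⟩
    haveI := hK
    by_cases hKb : K = ⊥
    · exact Or.inl hKb
    refine Or.inr ?_
    obtain ⟨hPK, -⟩ := H.le_of_normal K hKb
    have hsup : Subgroup.normalizer ((P : Subgroup G) : Set G) ⊔ K = ⊤ := by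
      have hPK' : ((P.subtype hPK) : Subgroup K).map K.subtype = (P : Subgroup G) := by
        rw [Sylow.coe_subtype, Subgroup.map_subgroupOf_eq_of_le hPK]
      have h := Sylow.normalizer_sup_eq_top (P.subtype hPK)
      rwa [hPK'] at h
    have hidx : K.index ∣ 2 := by
      have h3 : (P : Subgroup G).relIndex (Subgroup.normalizer ((P : Subgroup G) : Set G)) = 2 := by
        have h := Subgroup.card_mul_index
          ((P : Subgroup G).subgroupOf (Subgroup.normalizer ((P : Subgroup G) : Set G)))
        rw [H.hN, Nat.card_congr (Subgroup.subgroupOfEquivOfLe (Subgroup.le_normalizer)).toEquiv,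
          show Nat.card (P : Subgroup G) = p from H.card_P, mul_comm 2 p] at h
        exact Nat.eq_of_mul_eq_mul_left hp.out.pos h
      rw [← Subgroup.relIndex_top_right, ← hsup, Subgroup.relIndex_sup_right, ← h3]
      exact Subgroup.relIndex_dvd_of_le_left _ hPK
    have hc : commutator G ≤ K := by
      have h2 : IsMulCommutative (G ⧸ K) := by
        rcases (Nat.dvd_prime Nat.prime_two).1 hidx with h | h
        · haveI : Subsingleton (G ⧸ K) := by
            rw [← Finite.card_le_one_iff_subsingleton]
            exact le_of_eq h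
          exact ⟨⟨fun a b => Subsingleton.elim _ _⟩⟩
        · haveI : Fact (Nat.Prime 2) := ⟨Nat.prime_two⟩
          haveI := isCyclic_of_prime_card (α := G ⧸ K) (p := 2) h
          exact IsCyclic.commutative
      exact Subgroup.Normal.quotient_commutative_iff_commutator_le.1 h2
    rw [H.perfect] at hc
    exact top_le_iff.1 hc
  -- the number of Sylow subgroups
  have hidx : Nat.card (Sylow p G) * (2 * p) = Nat.card G := by
    rw [show Nat.card (Sylow p G) = (Subgroup.normalizer ((P : Subgroup G) : Set G)).index from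
      P.card_eq_index_normalizer, ← H.hN, mul_comm]
    exact Subgroup.card_mul_index _
  obtain ⟨n, hn⟩ : ∃ n, Nat.card (Sylow p G) = 1 + n * p := by
    have h := card_sylow_modEq_one p G
    rw [Nat.ModEq, Nat.mod_eq_of_lt hp.out.one_lt] at h
    refine ⟨Nat.card (Sylow p G) / p, ?_⟩
    have h1 := Nat.div_add_mod (Nat.card (Sylow p G)) p
    rw [mul_comm (Nat.card (Sylow p G) / p) p]
    omega
  have hn2 : 2 * n + 3 = p := by
    rw [hn, hcard] at hidx
    obtain ⟨k, hk⟩ : ∃ k, p = k + 2 := ⟨p - 2, by omega⟩
    have h1 : (1 + n * p) * 2 = (p - 1) * (p - 2) := by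
      refine Nat.eq_of_mul_eq_mul_left hp.out.pos ?_
      rw [← mul_assoc p (p - 1), ← hidx]
      ring
    rw [hk, show k + 2 - 1 = k + 1 by omega, show k + 2 - 2 = k by omega] at h1
    have h2 : (k + 2) * (2 * n + 3) = (k + 2) * (k + 2) := by nlinarith
    rw [hk]
    exact Nat.eq_of_mul_eq_mul_left (by omega) h2
  have hcore : pPrimeCore p G = ⊥ := by
    haveI : (pPrimeCore p G).Normal := inferInstance
    exact H.eq_bot_of_not_dvd _ (Core.not_dvd_card_pPrimeCore p G)
  let e0 : G ⧸ pPrimeCore p G ≃* G :=
    (QuotientGroup.quotientMulEquivOfEq hcore).trans QuotientGroup.quotientBot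
  suffices hp' : p = 5 by
    refine ⟨hp', ?_⟩
    haveI := hsimple
    exact S0494.result (by rw [hcard, hp'])
  rcases S4700.result H.perfect p P H.card_P n hn with
    ⟨F, iF, iFt, hF, h3, ⟨e⟩⟩ | ⟨a, F, iF, iFt, hF, hpa, h3, ⟨e⟩⟩ | ⟨h, u, hh, hu, he⟩
  · letI := iF
    letI := iFt
    have h := card_psl_two hp.out h3 hF
    rw [← Nat.card_congr (e0.symm.trans e).toEquiv, hcard] at h
    obtain ⟨k, hk⟩ : ∃ k, p = k + 2 := ⟨p - 2, by omega⟩
    rw [show p ^ 2 - 1 = (p + 1) * (p - 1) by rw [← Nat.sq_sub_sq, one_pow], hk,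
      show k + 2 - 1 = k + 1 by omega, show k + 2 - 2 = k by omega] at h
    have h4 : (k + 2) * (k + 1) * (2 * k) = (k + 2) * (k + 1) * (k + 3) := by
      rw [show (k + 2) * (k + 1) * (2 * k) = 2 * ((k + 2) * (k + 1) * k) by ring, h]
      ring
    have := Nat.eq_of_mul_eq_mul_left (by positivity) h4
    omega
  · -- the special linear group over a field of characteristic two
    letI := iF
    letI := iFt
    haveI : Fact (Nat.Prime 2) := ⟨Nat.prime_two⟩
    haveI : CharP F 2 := charP_of_card_eq_prime_pow (f := a) hF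
    set f : G ≃* Matrix.SpecialLinearGroup (Fin 2) F := e0.symm.trans e
    set q := 2 ^ a with hq
    have hqp : p = q + 1 := hpa
    have hinv : ∀ v : G, v * v = 1 → f v * f v = 1 := fun v hv => by
      rw [← map_mul, hv, map_one]
    have hne : ∀ v : G, v ≠ 1 → f v ≠ 1 := fun v hv h => hv (f.injective (by rw [h, map_one]))
    have habel : ∀ u v w : G, u * u = 1 → u ≠ 1 → u * v = v * u → u * w = w * u →
        v * w = w * v := fun u v w hu hu1 hv hw => f.injective (by
      rw [map_mul, map_mul]
      exact commute_of_commute (hinv u hu) (hne u hu1) (by rw [← map_mul, hv, map_mul])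
        (by rw [← map_mul, hw, map_mul]))
    have hexp : ∀ u v : G, u * u = 1 → u ≠ 1 → u * v = v * u → v * v = 1 :=
      fun u v hu hu1 hv => f.injective (by
        rw [map_mul, map_one]
        exact sq_eq_one_of_commute (hinv u hu) (hne u hu1) (by rw [← map_mul, hv, map_mul]))
    have hCc : ∀ u : G, u * u = 1 → u ≠ 1 →
        Nat.card (Subgroup.centralizer ({u} : Set G)) = q := by
      intro u hu hu1
      rw [← hF, ← card_centralizer (hinv u hu) (hne u hu1)]
      refine Nat.card_congr (Equiv.subtypeEquiv f.toEquiv fun v => ?_)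
      simp only [Subgroup.mem_centralizer_singleton_iff]
      constructor
      · intro h; show f v * f u = f u * f v; rw [← map_mul, h, map_mul]
      · intro h; exact f.injective (by rw [map_mul, map_mul]; exact h)
    -- the involutions
    set I := Finset.univ.filter fun v : G => v * v = 1 ∧ v ≠ 1 with hI
    have hIle : I.card + 1 ≤ q * q := by
      have h1 : I.card ≤ Nat.card {v : Matrix.SpecialLinearGroup (Fin 2) F // v * v = 1 ∧ v ≠ 1} := by
        rw [hI, ← Fintype.card_subtype, ← Nat.card_eq_fintype_card]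
        exact Nat.card_le_card_of_injective (fun v => ⟨f v.1, hinv _ v.2.1, hne _ v.2.2⟩)
          fun v w hvw => Subtype.ext (f.injective (congrArg Subtype.val hvw))
      have h2 := card_involutions_le (F := F)
      rw [hF] at h2
      omega
    obtain ⟨⟨t, htN⟩, hto⟩ := exists_prime_orderOf_dvd_card'
      (G := Subgroup.normalizer ((P : Subgroup G) : Set G)) 2 (by rw [H.hN]; exact dvd_mul_right _ _)
    rw [← Subgroup.orderOf_coe] at hto
    have hto' : orderOf t = 2 := hto
    have htt : t * t = 1 := by rw [← sq, ← hto', pow_orderOf_eq_one]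
    have ht1 : t ≠ 1 := fun h => by rw [h, orderOf_one] at hto'; omega
    have hqne : 4 ≤ q := by omega
    have hq2 : 2 ∣ q := by
      have ha0 : a ≠ 0 := fun h0 => by rw [hq, h0, pow_zero] at hqne; omega
      exact hq ▸ dvd_pow_self 2 ha0
    -- all involutions are conjugate
    set K := Finset.univ.filter fun v : G => IsConj t v with hK
    have hKcard : K.card = (q + 1) * (q - 1) := by
      have hKi : K.card = (Subgroup.centralizer ({t} : Set G)).index := by
        rw [hK]; convert Chars.card_filter_isConj t
      rw [hKi]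
      have h := (Subgroup.centralizer ({t} : Set G)).card_mul_index
      rw [hCc t htt ht1, hcard, hqp, show q + 1 - 1 = q by omega,
        show q + 1 - 2 = q - 1 by omega] at h
      refine Nat.eq_of_mul_eq_mul_left (show 0 < q by omega) ?_
      rw [h]; ring
    have hKI : K = I := by
      refine Finset.eq_of_subset_of_card_le (fun v hv => ?_) ?_
      · obtain ⟨c, rfl⟩ := isConj_iff.1 (Finset.mem_filter.1 hv).2
        refine Finset.mem_filter.2 ⟨Finset.mem_univ _, ?_, fun h => ht1 (conj_eq_one_iff.1 h)⟩
        rw [show c * t * c⁻¹ * (c * t * c⁻¹) = c * (t * t) * c⁻¹ by group, htt]; group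
      · rw [hKcard, ← Nat.sq_sub_sq, one_pow, sq]
        omega
    set f0 := Nat.card (fixedBy α t) with hf0
    have hfix : ∀ v ∈ I, Nat.card (fixedBy α v) = f0 := by
      intro v hv
      rw [← hKI] at hv
      obtain ⟨c, rfl⟩ := isConj_iff.1 (Finset.mem_filter.1 hv).2
      refine Nat.card_congr ((MulAction.toPerm c⁻¹).subtypeEquiv fun b => ?_)
      show (c * t * c⁻¹) • b = b ↔ t • c⁻¹ • b = c⁻¹ • b
      rw [mul_smul, mul_smul]
      constructor
      · intro h; exact eq_inv_smul_iff.2 h
      · intro h; rw [h, smul_inv_smul]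
    have hf2 : f0 ≤ 2 := H.fixed_le_two htt ht1 htN
    obtain ⟨a0⟩ := H.nonempty
    set T := I.filter fun v => v • a0 = a0 with hT
    have hdc : 2 * p * T.card = I.card * f0 := by
      have hb : ∀ b : α, (I.filter fun v => v • b = b).card = T.card := by
        intro b
        obtain ⟨c, hc⟩ := MulAction.exists_smul_eq G a0 b
        refine (Finset.card_nbij' (fun v => c * v * c⁻¹) (fun v => c⁻¹ * v * c) ?_ ?_ ?_ ?_).symm
        · intro v hv
          simp only [hT, hI, Finset.coe_filter, Finset.mem_filter, Finset.mem_univ, true_and,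
            Set.mem_ofPred_eq] at hv ⊢
          refine ⟨⟨?_, fun h => hv.1.2 (conj_eq_one_iff.1 h)⟩, ?_⟩
          · rw [show c * v * c⁻¹ * (c * v * c⁻¹) = c * (v * v) * c⁻¹ by group, hv.1.1]; group
          · rw [mul_smul, mul_smul, inv_smul_eq_iff.2 hc.symm, hv.2, hc]
        · intro v hv
          simp only [hT, hI, Finset.coe_filter, Finset.mem_filter, Finset.mem_univ, true_and,
            Set.mem_ofPred_eq] at hv ⊢
          refine ⟨⟨?_, fun h => hv.1.2 ?_⟩, ?_⟩
          · rw [show c⁻¹ * v * c * (c⁻¹ * v * c) = c⁻¹ * (v * v) * c by group, hv.1.1]; group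
          · calc v = c * (c⁻¹ * v * c) * c⁻¹ := by group
              _ = 1 := by rw [h]; group
          · rw [mul_smul, mul_smul, hc, hv.2, inv_smul_eq_iff]; exact hc.symm
        · intro v _; group
        · intro v _; group
      have h1 : ∑ v ∈ I, Nat.card (fixedBy α v) = ∑ b : α, (I.filter fun v => v • b = b).card := by
        simp only [Finset.card_filter]
        rw [Finset.sum_comm]
        refine Finset.sum_congr rfl fun v _ => ?_
        rw [← Finset.card_filter, ← Fintype.card_subtype, Nat.card_eq_fintype_card]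
        exact Fintype.card_congr (Equiv.subtypeEquivRight fun b => Iff.rfl)
      rw [Finset.sum_congr rfl fun b _ => hb b, Finset.sum_const, Finset.card_univ, H.hα,
        smul_eq_mul, Finset.sum_congr rfl hfix, Finset.sum_const, smul_eq_mul] at h1
      exact h1.symm
    have hIcard : I.card = (q + 1) * (q - 1) := by rw [← hKI, hKcard]
    rw [hIcard, hqp] at hdc
    have hTc : 2 * T.card = (q - 1) * f0 := by
      refine Nat.eq_of_mul_eq_mul_left (show 0 < q + 1 by omega) ?_
      rw [← mul_assoc, ← mul_assoc, ← hdc]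
      ring
    set St := stabilizer G a0 with hSt
    have hStc : Nat.card St * 2 = q * (q - 1) := by
      have h1 := St.card_mul_index
      rw [MulAction.index_stabilizer_of_transitive, Nat.card_eq_fintype_card (α := α), H.hα,
        hcard, hqp, show q + 1 - 1 = q by omega, show q + 1 - 2 = q - 1 by omega] at h1
      refine Nat.eq_of_mul_eq_mul_left (show 0 < q + 1 by omega) ?_
      rw [← mul_assoc (q + 1) q (q - 1), ← h1]
      ring
    -- the cliques
    have hclique : ∀ v ∈ T, f0 = 2 ∧ (T.filter fun w => v * w = w * v).card + 1 = q / 2 := by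
      intro v hv
      simp only [hT, hI, Finset.mem_filter, Finset.mem_univ, true_and] at hv
      obtain ⟨⟨hvv, hv1⟩, hva⟩ := hv
      set C := Subgroup.centralizer ({v} : Set G) with hC
      set S : Subgroup C := stabilizer C a0 with hS
      have h1 := S.card_mul_index
      rw [show Nat.card C = q from hCc v hvv hv1, MulAction.index_stabilizer] at h1
      have h2 : (orbit C a0).ncard ≤ f0 := by
        rw [← hfix v (by simp [hI, hvv, hv1]), Nat.card_coe_set_eq]
        refine Set.ncard_le_ncard ?_ (Set.toFinite _)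
        rintro _ ⟨⟨c, hc⟩, rfl⟩
        show v • c • a0 = c • a0
        rw [← mul_smul, ← Subgroup.mem_centralizer_singleton_iff.1 hc, mul_smul, hva]
      have h3 : Nat.card S ∣ Nat.card St :=
        Subgroup.card_dvd_of_injective
          ((C.subtype.comp S.subtype).codRestrict St fun s => mem_stabilizer_iff.2
            (mem_stabilizer_iff.1 s.2))
          fun s s' h => Subtype.ext (Subtype.ext (show ((s : C) : G) = ((s' : C) : G) from congrArg (fun z : St => (z : G)) h))
      have h4 : Nat.card S ∣ q := Dvd.intro _ h1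
      have h5 : 2 * Nat.card S ∣ q := by
        refine (Nat.Coprime.dvd_mul_right (n := q - 1) ?_).1 (hStc ▸ ?_)
        · refine Nat.Coprime.mul_left ?_ ?_
          · exact Nat.prime_two.coprime_iff_not_dvd.2 (by omega)
          · refine Nat.Coprime.coprime_dvd_left h4 ?_
            exact (Nat.coprime_self_sub_right (by omega)).2 (Nat.coprime_one_right q)
        · rw [mul_comm 2]; exact Nat.mul_dvd_mul_right h3 2
      have h6 : (orbit C a0).ncard = 2 ∧ f0 = 2 := by
        have hpos : 0 < Nat.card S := Nat.card_pos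
        have h7 : 2 * Nat.card S ≤ Nat.card S * (orbit C a0).ncard := by
          rw [h1]; exact Nat.le_of_dvd (by omega) h5
        rw [mul_comm 2] at h7
        have h8 := Nat.le_of_mul_le_mul_left h7 hpos
        omega
      rw [h6.1] at h1
      refine ⟨h6.2, ?_⟩
      have h9 : Nat.card S = (T.filter fun w => v * w = w * v).card + 1 := by
        have h10 : Nat.card S = (Finset.univ.filter fun w : G => v * w = w * v ∧ w • a0 = a0).card := by
          rw [← Fintype.card_subtype, ← Nat.card_eq_fintype_card]
          refine Nat.card_congr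
            { toFun := fun s => ⟨(s.1 : G),
                (Subgroup.mem_centralizer_singleton_iff.1 s.1.2).symm, mem_stabilizer_iff.1 s.2⟩
              invFun := fun w => ⟨⟨w.1, Subgroup.mem_centralizer_singleton_iff.2 w.2.1.symm⟩,
                mem_stabilizer_iff.2 w.2.2⟩
              left_inv := fun s => rfl
              right_inv := fun w => rfl }
        have h11 : (T.filter fun w => v * w = w * v) =
            (Finset.univ.filter fun w : G => v * w = w * v ∧ w • a0 = a0).erase 1 := by
          ext w
          simp only [hT, hI, Finset.mem_filter, Finset.mem_univ, true_and, Finset.mem_erase]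
          constructor
          · rintro ⟨⟨⟨-, hw1⟩, hwa⟩, hwc⟩; exact ⟨hw1, hwc, hwa⟩
          · rintro ⟨hw1, hwc, hwa⟩; exact ⟨⟨⟨hexp v w hvv hv1 hwc, hw1⟩, hwa⟩, hwc⟩
        rw [h10, h11, Finset.card_erase_add_one]
        simp
      omega
    have hTne : T.Nonempty := by
      have h2 : 2 ∣ Nat.card St := by
        have h4 : 4 ∣ q := by
          rw [hq]
          refine pow_dvd_pow 2 (show 2 ≤ a from ?_)
          by_contra h
          have : a = 0 ∨ a = 1 := by omega
          rcases this with h0 | h0 <;> rw [hq, h0] at hqne <;> norm_num at hqne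
        obtain ⟨j, hj⟩ := h4
        refine ⟨j * (q - 1), Nat.eq_of_mul_eq_mul_right (show 0 < 2 by norm_num) ?_⟩
        rw [hStc]
        conv_lhs => rw [hj]
        rw [← hj]
        rw [hj]
        ring
      obtain ⟨⟨v, hv⟩, hvo⟩ := exists_prime_orderOf_dvd_card' (G := St) 2 h2
      rw [← Subgroup.orderOf_coe] at hvo
      have hvo' : orderOf v = 2 := hvo
      refine ⟨v, ?_⟩
      simp only [hT, hI, Finset.mem_filter, Finset.mem_univ, true_and]
      exact ⟨⟨by rw [← sq, ← hvo', pow_orderOf_eq_one],
        fun h => by rw [h, orderOf_one] at hvo'; omega⟩, mem_stabilizer_iff.1 hv⟩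
    obtain ⟨v0, hv0⟩ := hTne
    have hf0' : f0 = 2 := (hclique v0 hv0).1
    rw [hf0', mul_comm (q - 1) 2] at hTc
    have hT' : T.card = q - 1 := by omega
    -- the cliques partition the involutions of the stabilizer
    let g : G → Finset G := fun v => T.filter fun w => v * w = w * v
    have hfib : ∀ C ∈ T.image g, (T.filter fun v => g v = C).card + 1 = q / 2 := by
      intro C hC
      obtain ⟨v, hv, rfl⟩ := Finset.mem_image.1 hC
      rw [← (hclique v hv).2]
      congr 2
      refine Finset.filter_congr fun w hw => ?_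
      have hv' : v * v = 1 ∧ v ≠ 1 := (Finset.mem_filter.1 (Finset.mem_filter.1 hv).1).2
      have hw' : w * w = 1 ∧ w ≠ 1 := (Finset.mem_filter.1 (Finset.mem_filter.1 hw).1).2
      constructor
      · intro h
        have hmem : w ∈ g w := Finset.mem_filter.2 ⟨hw, rfl⟩
        rw [h] at hmem
        exact (Finset.mem_filter.1 hmem).2
      · intro h
        refine Finset.filter_congr fun z _ => ⟨fun hz => ?_, fun hz => ?_⟩
        · exact habel w v z hw'.1 hw'.2 h.symm hz
        · exact habel v w z hv'.1 hv'.2 h hz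
    have hdiv : (q / 2 - 1) ∣ q - 1 := by
      rw [← hT', Finset.card_eq_sum_card_image g T]
      exact Finset.dvd_sum fun C hC => by
        rw [show (T.filter fun v => g v = C).card = q / 2 - 1 by have := hfib C hC; omega]
    obtain ⟨j, hj⟩ := hq2
    rw [hj, show 2 * j / 2 = j by omega] at hdiv
    have h1 : j - 1 ∣ 1 := by
      have h2 : 2 * j - 1 = 2 * (j - 1) + 1 := by omega
      rw [h2] at hdiv
      exact (Nat.dvd_add_right (dvd_mul_left _ _)).1 hdiv
    have := Nat.le_of_dvd (by norm_num) h1
    omega
  · exfalso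
    have h1 : n * (u + 1) ≤ p * u := by nlinarith
    have h2 : u * p ≤ h * u * p := Nat.mul_le_mul_right p (Nat.le_mul_of_pos_left u hh)
    nlinarith

end Cfsg.Agent.Blocks.TwicePrime
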