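import Cfsg.Agent.Chars.Eigen

/-!
The order of a group with an irreducible character `μ` of degree `p - 1` which is `-1` on the
`p`-singular elements and an irreducible character `θ` which is `μ - 1` on the others.
-/

set_option autoImplicit false

namespace Cfsg.Agent.Blocks.TwicePrime

open Cfsg Cfsg.Agent
open scoped ComplexConjugate

universe u

variable {G : Type u} [Group G] [Fintype G]

theorem card_mul_classInner (φ ψ : G → ℂ) :
    (Nat.card G : ℂ) * classInner φ ψ = ∑ g : G, φ g * conj (ψ g) := by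
  rw [Chars.classInner_def, mul_inv_cancel_left₀ Chars.card_ne_zero]

/-- The identity of the third moments forces the order of the group. -/
theorem card_eq {p : ℕ} (hp : p.Prime) (hp5 : 5 ≤ p) {μ θ : G → ℂ} (hμ : IsIrrCharacter G μ)
    (hθ : IsIrrCharacter G θ) (hμ1 : μ 1 = ((p - 1 : ℕ) : ℂ))
    (hint : ∀ g : G, ∃ z : ℤ, μ g = z) (hfaith : ∀ g : G, μ g = μ 1 → g = 1)
    (hsing : ∀ g : G, p ∣ orderOf g → μ g = -1)
    (hrel : ∀ g : G, ¬ p ∣ orderOf g → θ g = μ g - 1)
    (hcount : 2 * p * (Finset.univ.filter fun g : G => p ∣ orderOf g).card =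
      Nat.card G * (p - 1)) :
    Nat.card G = p * (p - 1) * (p - 2) := by
  classical
  choose w hw using hint
  set S := Finset.univ.filter fun g : G => p ∣ orderOf g with hS
  set R := Finset.univ.filter fun g : G => ¬ p ∣ orderOf g with hR
  have hsplit : ∀ f : G → ℂ, ∑ g : G, f g = ∑ g ∈ R, f g + ∑ g ∈ S, f g := fun f => by
    rw [hR, hS, add_comm, Finset.sum_filter_add_sum_filter_not]
  have hwS : ∀ g ∈ S, μ g = -1 := fun g hg => hsing g (Finset.mem_filter.1 hg).2
  have hθR : ∀ g ∈ R, θ g = (w g : ℂ) - 1 := fun g hg => by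
    rw [hrel g (Finset.mem_filter.1 hg).2, hw]
  have hμc := Chars.isCharacter_of_isIrr hμ
  have hθc := Chars.isCharacter_of_isIrr hθ
  set S1 : ℤ := ∑ g ∈ R, w g with hS1
  set S2 : ℤ := ∑ g ∈ R, w g ^ 2 with hS2
  set S3 : ℤ := ∑ g ∈ R, w g ^ 3 with hS3
  set T : ℂ := ∑ g ∈ S, θ g * conj (θ g) with hT
  have hRS : (R.card : ℂ) + (S.card : ℂ) = (Nat.card G : ℂ) := by
    rw [← Nat.cast_add, Nat.card_eq_fintype_card, ← Finset.card_univ, hR, hS, add_comm,
      Finset.card_filter_add_card_filter_not]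
  have hne : μ ≠ fun _ => 1 := fun h => by
    rw [h] at hμ1
    have h0 : ((p - 1 : ℕ) : ℂ) = ((1 : ℕ) : ℂ) := by rw [Nat.cast_one]; exact hμ1.symm
    have h1 : (p - 1 : ℕ) = 1 := by exact_mod_cast h0
    omega
  have hwR : ∀ g : G, μ g = (w g : ℂ) := hw
  -- orthogonality to the principal character
  have h1 : (S1 : ℂ) - S.card = 0 := by
    have h := card_mul_classInner μ (fun _ : G => (1 : ℂ))
    have eR : ∑ g ∈ R, μ g * conj ((fun _ : G => (1 : ℂ)) g) = (S1 : ℂ) := by
      rw [hS1, Int.cast_sum]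
      exact Finset.sum_congr rfl fun g _ => by simp [hwR]
    have eS : ∑ g ∈ S, μ g * conj ((fun _ : G => (1 : ℂ)) g) = -(S.card : ℂ) := by
      rw [Finset.sum_congr rfl (g := fun _ => (-1 : ℂ)) fun g hg => by rw [hwS g hg]; simp]
      simp
    rw [Chars.classInner_irr_of_ne hμ Chars.isIrrCharacter_one hne, mul_zero, hsplit, eR, eS] at h
    linear_combination -h
  -- the norm of `μ`
  have h2 : (S2 : ℂ) + S.card = Nat.card G := by
    have h := card_mul_classInner μ μ
    have eR : ∑ g ∈ R, μ g * conj (μ g) = (S2 : ℂ) := by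
      rw [hS2, Int.cast_sum]
      exact Finset.sum_congr rfl fun g _ => by rw [hwR g, map_intCast]; push_cast; ring
    have eS : ∑ g ∈ S, μ g * conj (μ g) = (S.card : ℂ) := by
      rw [Finset.sum_congr rfl (g := fun _ => (1 : ℂ)) fun g hg => by rw [hwS g hg]; simp]
      simp
    rw [Chars.classInner_self_irr hμ, mul_one, hsplit, eR, eS] at h
    linear_combination -h
  -- the norm of `θ`
  have h4 : (S2 : ℂ) - 2 * S1 + R.card + T = Nat.card G := by
    have h := card_mul_classInner θ θ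
    have eR : ∑ g ∈ R, θ g * conj (θ g) = (S2 : ℂ) - 2 * S1 + R.card := by
      rw [Finset.sum_congr rfl (g := fun g => (((w g ^ 2 - 2 * w g + 1 : ℤ)) : ℂ)) fun g hg => by
        rw [hθR g hg, map_sub, map_intCast, map_one]; push_cast; ring,
        ← Int.cast_sum, Finset.sum_add_distrib, Finset.sum_sub_distrib, ← Finset.mul_sum,
        ← hS2, ← hS1]
      simp
    rw [Chars.classInner_self_irr hθ, mul_one, hsplit, eR, ← hT] at h
    linear_combination -h
  -- the multiplicity of `μ` in its square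
  obtain ⟨c, hc⟩ := Chars.exists_classInner_eq_nat (Chars.isCharacter_mul hμc hμc) hμc
  have h3 : (Nat.card G : ℂ) * c = (S3 : ℂ) - S.card := by
    have h := card_mul_classInner (μ * μ) μ
    have eR : ∑ g ∈ R, (μ * μ) g * conj (μ g) = (S3 : ℂ) := by
      rw [hS3, Int.cast_sum]
      exact Finset.sum_congr rfl fun g _ => by
        rw [Pi.mul_apply, hwR g, map_intCast]; push_cast; ring
    have eS : ∑ g ∈ S, (μ * μ) g * conj (μ g) = -(S.card : ℂ) := by
      rw [Finset.sum_congr rfl (g := fun _ => (-1 : ℂ)) fun g hg => by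
        rw [Pi.mul_apply, hwS g hg]; simp]
      simp
    rw [hc, hsplit, eR, eS] at h
    linear_combination h
  -- the multiplicity of `θ` in `μθ`
  obtain ⟨d, hd⟩ := Chars.exists_classInner_eq_nat (Chars.isCharacter_mul hμc hθc) hθc
  have h5 : (Nat.card G : ℂ) * d = (S3 : ℂ) - 2 * S2 + S1 - T := by
    have h := card_mul_classInner (μ * θ) θ
    have eR : ∑ g ∈ R, (μ * θ) g * conj (θ g) = (S3 : ℂ) - 2 * S2 + S1 := by
      rw [Finset.sum_congr rfl (g := fun g => (((w g ^ 3 - 2 * w g ^ 2 + w g : ℤ)) : ℂ)) fun g hg => by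
        rw [Pi.mul_apply, hθR g hg, hwR g, map_sub, map_intCast, map_one]; push_cast; ring,
        ← Int.cast_sum, Finset.sum_add_distrib, Finset.sum_sub_distrib, ← Finset.mul_sum,
        ← hS3, ← hS2, ← hS1]
      push_cast
      ring
    have eS : ∑ g ∈ S, (μ * θ) g * conj (θ g) = -T := by
      rw [hT, ← Finset.sum_neg_distrib]
      exact Finset.sum_congr rfl fun g hg => by rw [Pi.mul_apply, hwS g hg]; ring
    rw [hd, hsplit, eR, eS] at h
    linear_combination h
  have hc1 : c = d + 1 := by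
    have h : (Nat.card G : ℂ) * c = (Nat.card G : ℂ) * ((d + 1 : ℕ) : ℂ) := by
      push_cast
      linear_combination h3 - h5 + h4 + h2 + h1 - hRS
    exact_mod_cast mul_left_cancel₀ Chars.card_ne_zero h
  -- back to the integers
  have hp0 : (p : ℤ) ≠ 0 := by exact_mod_cast hp.ne_zero
  have e1 : S1 = (S.card : ℤ) := by
    have : (S1 : ℂ) = ((S.card : ℤ) : ℂ) := by push_cast; linear_combination h1
    exact_mod_cast this
  have e2 : S2 = (Nat.card G : ℤ) - S.card := by
    have : (S2 : ℂ) = (((Nat.card G : ℤ) - S.card : ℤ) : ℂ) := by push_cast; linear_combination h2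
    exact_mod_cast this
  have e3 : S3 = (Nat.card G : ℤ) * c + S.card := by
    have : (S3 : ℂ) = (((Nat.card G : ℤ) * c + S.card : ℤ) : ℂ) := by
      push_cast; linear_combination -h3
    exact_mod_cast this
  have hp1 : ((p - 1 : ℕ) : ℤ) = (p : ℤ) - 1 := by
    rw [Nat.cast_sub hp.one_le, Nat.cast_one]
  have hcount' : 2 * (p : ℤ) * S.card = (Nat.card G : ℤ) * ((p : ℤ) - 1) := by
    rw [← hp1]; exact_mod_cast hcount
  have hle : ∀ g : G, w g ≤ (p : ℤ) - 1 := fun g => by
    have h := Chars.norm_le_of_isCharacter hμc g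
    rw [hw, hμ1] at h
    simp only [Complex.norm_intCast, Complex.natCast_re] at h
    have h' : |(w g : ℝ)| ≤ (((p - 1 : ℕ) : ℤ) : ℝ) := by exact_mod_cast h
    rw [hp1] at h'
    exact_mod_cast le_trans (le_abs_self _) h'
  have hprod : ∀ z : ℤ, 0 ≤ z * (z - 1) := fun z => by
    rcases le_or_gt z 0 with h | h <;> nlinarith
  have hterm : ∀ g ∈ R, 0 ≤ w g * (w g - 1) * ((p : ℤ) - 1 - w g) := fun g _ =>
    mul_nonneg (hprod _) (by have := hle g; omega)
  have hsum : ∑ g ∈ R, w g * (w g - 1) * ((p : ℤ) - 1 - w g) =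
      -((Nat.card G : ℤ) * d) := by
    have h : ∑ g ∈ R, w g * (w g - 1) * ((p : ℤ) - 1 - w g) =
        -S3 + (p : ℤ) * S2 - ((p : ℤ) - 1) * S1 := by
      rw [hS1, hS2, hS3, ← Finset.sum_neg_distrib, Finset.mul_sum, Finset.mul_sum,
        ← Finset.sum_add_distrib, ← Finset.sum_sub_distrib]
      exact Finset.sum_congr rfl fun g _ => by ring
    rw [h, e1, e2, e3, hc1]
    push_cast
    linear_combination -hcount'
  have h0 : ∑ g ∈ R, w g * (w g - 1) * ((p : ℤ) - 1 - w g) = 0 := by
    refine le_antisymm ?_ (Finset.sum_nonneg hterm)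
    rw [hsum]
    have : 0 ≤ (Nat.card G : ℤ) * d := mul_nonneg (Int.natCast_nonneg _) (Int.natCast_nonneg _)
    omega
  have hzero := (Finset.sum_eq_zero_iff_of_nonneg hterm).1 h0
  have hone : (1 : G) ∈ R := Finset.mem_filter.2 ⟨Finset.mem_univ _, by
    rw [orderOf_one]; exact hp.not_dvd_one⟩
  have hw1 : w 1 = (p : ℤ) - 1 := by
    have h : ((w 1 : ℤ) : ℂ) = (((p - 1 : ℕ) : ℤ) : ℂ) := by rw [← hw, hμ1]; simp
    rw [← hp1]; exact_mod_cast h
  have hA : S2 - S1 = ((p : ℤ) - 1) * ((p : ℤ) - 2) := by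
    rw [hS1, hS2, ← Finset.sum_sub_distrib, Finset.sum_eq_single_of_mem 1 hone fun g hg hg1 => ?_,
      hw1]
    · ring
    · have h := hzero g hg
      rcases mul_eq_zero.1 h with h | h
      · rw [← h]; ring
      · refine absurd (hfaith g ?_) hg1
        rw [hw, hw, hw1, show w g = (p : ℤ) - 1 by omega]
  rw [e1, e2] at hA
  have hfin : (Nat.card G : ℤ) = (p : ℤ) * ((p : ℤ) - 1) * ((p : ℤ) - 2) := by
    linear_combination hcount' + (p : ℤ) * hA
  have : ((Nat.card G : ℕ) : ℤ) = ((p * (p - 1) * (p - 2) : ℕ) : ℤ) := by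
    push_cast [hp1, Nat.cast_sub (show 2 ≤ p by omega)]
    exact hfin
  exact_mod_cast this

end Cfsg.Agent.Blocks.TwicePrime
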