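import Cfsg.Agent.Chars.Eigen
import Cfsg.Agent.PermGroups.Counting
import Mathlib.GroupTheory.GroupAction.Primitive
import Mathlib.GroupTheory.Sylow
import Mathlib.GroupTheory.Transfer

/-!
Primitive groups of degree `2p` whose Sylow normalizer has order `2p`: the group theory.
-/

set_option autoImplicit false
set_option linter.style.haveILetI false

namespace Cfsg.Agent.Blocks.TwicePrime

open MulAction
open scoped commutatorElement

variable {G α : Type*} [Group G] [Finite G] [Fintype α] [MulAction G α] [FaithfulSMul G α]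
variable {p : ℕ} [hp : Fact p.Prime]

/-- The hypotheses. -/
structure Hyp (G α : Type*) [Group G] [Fintype α] [MulAction G α] (p : ℕ) (P : Sylow p G) :
    Prop where
  hp5 : 5 ≤ p
  hα : Fintype.card α = 2 * p
  hprim : IsPreprimitive G α
  hN : Nat.card (Subgroup.normalizer ((P : Subgroup G) : Set G)) = 2 * p

variable {P : Sylow p G} (H : Hyp G α p P)
include H

theorem Hyp.nonempty : Nonempty α :=
  Fintype.card_pos_iff.1 (by rw [H.hα]; have := hp.out.pos; omega)

theorem Hyp.dvd_card : 2 * p ∣ Nat.card G := by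
  haveI := H.hprim.toIsPretransitive
  obtain ⟨a⟩ := H.nonempty
  have h := MulAction.index_stabilizer_of_transitive G a
  rw [Nat.card_eq_fintype_card, H.hα] at h
  rw [← h]
  exact Subgroup.index_dvd_card _

theorem Hyp.card_P : Nat.card P = p := by
  have h1 : (P : Subgroup G) ≤ Subgroup.normalizer ((P : Subgroup G) : Set G) :=
    Subgroup.le_normalizer
  have h2 := Subgroup.card_dvd_of_le h1
  rw [H.hN] at h2
  obtain ⟨k, hk⟩ := P.2.exists_card_eq
  have hk' : Nat.card (P : Subgroup G) = p ^ k := hk
  rw [hk'] at h2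
  have hk1 : 1 ≤ k := by
    by_contra h
    have h3 : Nat.card (P : Subgroup G) = 1 := by rw [hk', show k = 0 by omega, pow_zero]
    have h4 := P.card_eq_multiplicity
    have h5 : Nat.card P = 1 := h3
    rw [h5] at h4
    have h6 : p ∣ Nat.card G := (dvd_mul_left p 2).trans H.dvd_card
    have h7 := hp.out.factorization_pos_of_dvd Nat.card_pos.ne' h6
    have h8 := Nat.le_self_pow (a := p) h7.ne'
    have := hp.out.two_le
    omega
  have hk2 : k ≤ 1 := by
    by_contra h
    have h3 : p ^ 2 ∣ 2 * p := (pow_dvd_pow p (by omega)).trans h2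
    rw [sq] at h3
    have h4 := Nat.le_of_dvd (by omega) (Nat.dvd_of_mul_dvd_mul_right hp.out.pos h3)
    have := H.hp5
    omega
  show Nat.card (P : Subgroup G) = p
  rw [hk', show k = 1 by omega, pow_one]

theorem Hyp.not_sq_dvd : ¬ p * p ∣ Nat.card G := by
  intro h
  have h1 := P.card_eq_multiplicity
  rw [H.card_P] at h1
  have h2 : (Nat.card G).factorization p = 1 := by
    refine Nat.pow_right_injective hp.out.two_le ?_
    simpa using h1.symm
  rw [← sq] at h
  have h3 := (hp.out.pow_dvd_iff_le_factorization Nat.card_pos.ne').1 h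
  omega

/-- Every subgroup generated by an element of order `p` is conjugate to the Sylow subgroup. -/
theorem Hyp.exists_conj {u : G} (hu : orderOf u = p) :
    ∃ a : G, ∀ z ∈ (P : Subgroup G), ∃ w ∈ Subgroup.zpowers u, a * w * a⁻¹ = z := by
  have hcard : Nat.card (Subgroup.zpowers u) = p ^ (Nat.card G).factorization p := by
    rw [Nat.card_zpowers, hu, ← P.card_eq_multiplicity, H.card_P]
  obtain ⟨a, ha⟩ := MulAction.exists_smul_eq G (Sylow.ofCard _ hcard) P
  refine ⟨a, fun z hz => ?_⟩
  have h1 : z ∈ (MulAut.conj a • (Sylow.ofCard _ hcard : Sylow p G) : Sylow p G) := by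
    show z ∈ ((a • Sylow.ofCard _ hcard : Sylow p G) : Subgroup G)
    rw [ha]
    exact hz
  obtain ⟨w, hw, hwz⟩ := h1
  simp only [Sylow.coe_ofCard] at hw
  exact ⟨w, hw, hwz⟩

/-- A nontrivial normal subgroup contains the Sylow subgroup. -/
theorem Hyp.le_of_normal (K : Subgroup G) [K.Normal] (hK : K ≠ ⊥) :
    (P : Subgroup G) ≤ K ∧ 2 * p ∣ Nat.card K := by
  haveI := H.hprim
  haveI := H.hprim.toIsPretransitive
  have hfix : fixedPoints K α ≠ Set.univ := by
    intro h
    apply hK
    rw [eq_bot_iff]
    intro g hg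
    rw [Subgroup.mem_bot]
    refine eq_of_smul_eq_smul (α := α) fun a => ?_
    have : a ∈ fixedPoints K α := by rw [h]; exact Set.mem_univ a
    rw [one_smul]
    exact this ⟨g, hg⟩
  haveI := IsQuasiPreprimitive.isPretransitive_of_normal (G := G) (X := α) hfix
  obtain ⟨a⟩ := H.nonempty
  have h := MulAction.index_stabilizer_of_transitive K a
  rw [Nat.card_eq_fintype_card, H.hα] at h
  have hdvd : 2 * p ∣ Nat.card K := by rw [← h]; exact Subgroup.index_dvd_card _
  refine ⟨fun z hz => ?_, hdvd⟩
  obtain ⟨⟨u, hu⟩, huo⟩ := exists_prime_orderOf_dvd_card' p ((dvd_mul_left p 2).trans hdvd)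
  rw [← Subgroup.orderOf_coe] at huo
  obtain ⟨b, hb⟩ := H.exists_conj (u := u) huo
  obtain ⟨w, hw, rfl⟩ := hb z hz
  exact (inferInstance : K.Normal).conj_mem w (Subgroup.zpowers_le.2 hu hw) b

theorem Hyp.eq_bot_of_not_dvd (K : Subgroup G) [K.Normal] (hK : ¬ p ∣ Nat.card K) : K = ⊥ := by
  by_contra h
  exact hK ((dvd_mul_left p 2).trans (H.le_of_normal K h).2)

theorem Hyp.not_normal : ¬ (P : Subgroup G).Normal := by
  intro hn
  haveI := hn
  have hne : (P : Subgroup G) ≠ ⊥ := fun h => hp.out.ne_one (by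
    rw [← H.card_P]
    show Nat.card (P : Subgroup G) = 1
    rw [h, Subgroup.card_bot])
  have h := (H.le_of_normal (P : Subgroup G) hne).2
  have hc : Nat.card (P : Subgroup G) = p := H.card_P
  rw [hc] at h
  have := Nat.le_of_dvd hp.out.pos h
  have := hp.out.pos
  omega

theorem Hyp.perfect : commutator G = ⊤ := by
  classical
  set K := commutator G with hK
  have hKne : K ≠ ⊥ := by
    intro h
    refine H.not_normal ⟨fun z hz g => ?_⟩
    have h1 : ⁅g, z⁆ ∈ K := by
      rw [hK, commutator_def]
      exact Subgroup.commutator_mem_commutator (Subgroup.mem_top g) (Subgroup.mem_top z)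
    rw [h, Subgroup.mem_bot, commutatorElement_eq_one_iff_mul_comm] at h1
    rw [h1, mul_inv_cancel_right]
    exact hz
  obtain ⟨hPK, -⟩ := H.le_of_normal K hKne
  set N := Subgroup.normalizer ((P : Subgroup G) : Set G) with hN
  have hPK' : ((P.subtype hPK) : Subgroup K).map K.subtype = (P : Subgroup G) := by
    rw [Sylow.coe_subtype, Subgroup.map_subgroupOf_eq_of_le hPK]
  have hsup : N ⊔ K = ⊤ := by
    have h := Sylow.normalizer_sup_eq_top (P.subtype hPK)
    rw [hPK'] at h
    exact h
  have hidx : K.index = K.relIndex N := by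
    rw [← Subgroup.relIndex_top_right, ← hsup, Subgroup.relIndex_sup_right]
  have hPN : (P : Subgroup G).relIndex N = 2 := by
    have h := Subgroup.card_mul_index ((P : Subgroup G).subgroupOf N)
    rw [hN, H.hN, Nat.card_congr (Subgroup.subgroupOfEquivOfLe (Subgroup.le_normalizer)).toEquiv,
      show Nat.card (P : Subgroup G) = p from H.card_P, mul_comm 2 p] at h
    exact Nat.eq_of_mul_eq_mul_left hp.out.pos h
  have hdvd : K.index ∣ 2 := by rw [hidx, ← hPN]; exact Subgroup.relIndex_dvd_of_le_left N hPK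
  rcases (Nat.dvd_prime Nat.prime_two).1 hdvd with h | h
  · exact Subgroup.index_eq_one.1 h
  exfalso
  -- the commutator subgroup has index two and a self-centralizing Sylow subgroup
  set Q := P.subtype hPK with hQ
  have hQc : Nat.card (Q : Subgroup K) = p := by
    rw [hQ, Sylow.coe_subtype, Nat.card_congr (Subgroup.subgroupOfEquivOfLe hPK).toEquiv]
    exact H.card_P
  haveI : IsCyclic (Q : Subgroup K) := isCyclic_of_prime_card hQc
  have hNK : ∀ z ∈ N, z ∈ K → z ∈ (P : Subgroup G) := by
    intro z hzN hzK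
    have h1 : (P : Subgroup G).subgroupOf N = K.subgroupOf N :=
      Subgroup.eq_of_le_of_card_ge (fun y hy => hPK hy) (by
        have e1 := Subgroup.card_mul_index ((P : Subgroup G).subgroupOf N)
        have e2 := Subgroup.card_mul_index (K.subgroupOf N)
        change _ * (P : Subgroup G).relIndex N = _ at e1
        change _ * K.relIndex N = _ at e2
        rw [hPN] at e1
        rw [← hidx, h] at e2
        omega)
    have : (⟨z, hzN⟩ : N) ∈ (P : Subgroup G).subgroupOf N := by rw [h1]; exact hzK
    exact this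
  have hle : Subgroup.normalizer ((Q : Subgroup K) : Set K) ≤
      Subgroup.centralizer ((Q : Subgroup K) : Set K) := by
    intro z hz
    have hzN : (z : G) ∈ N := by
      rw [hN, Subgroup.mem_normalizer_iff]
      intro y
      rw [Subgroup.mem_normalizer_iff] at hz
      constructor
      · intro hy
        exact (hz ⟨y, hPK hy⟩).1 hy
      · intro hy
        have hy' : y ∈ K := by
          have hK' : (z : G)⁻¹ * ((z : G) * y * (z : G)⁻¹) * (z : G) ∈ K :=
            K.mul_mem (K.mul_mem (K.inv_mem z.2) (hPK hy)) z.2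
          simpa [mul_assoc] using hK'
        exact (hz ⟨y, hy'⟩).2 hy
    have hzP : z ∈ (Q : Subgroup K) := hNK _ hzN z.2
    rw [Subgroup.mem_centralizer_iff]
    intro y hy
    exact congrArg Subtype.val (mul_comm' (⟨y, hy⟩ : (Q : Subgroup K)) ⟨z, hzP⟩)
  have hcomp := MonoidHom.ker_transferSylow_isComplement' Q hle
  set T := (MonoidHom.transferSylow Q hle).ker with hT
  have hTc : ¬ p ∣ Nat.card T := by
    intro hd
    have h1 := hcomp.card_mul_card
    rw [hQc] at h1
    have h2 : p * p ∣ Nat.card G := by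
      refine (Nat.mul_dvd_mul hd dvd_rfl).trans ?_
      rw [h1]
      exact Subgroup.card_subgroup_dvd_card K
    exact H.not_sq_dvd h2
  have hidx' : T.index = p := by
    rw [← hQc]; exact hcomp.symm.index_eq_card
  have hTmem : ∀ z : K, (¬ p ∣ orderOf z) ↔ z ∈ T := by
    intro z
    constructor
    · intro hz
      have h1 : orderOf (MonoidHom.transferSylow Q hle z) ∣ p :=
        (orderOf_dvd_natCard _).trans hQc.dvd
      rcases (Nat.dvd_prime hp.out).1 h1 with h2 | h2
      · exact MonoidHom.mem_ker.2 (orderOf_eq_one_iff.1 h2)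
      · exact absurd (h2 ▸ orderOf_map_dvd (MonoidHom.transferSylow Q hle) z) hz
    · intro hz hd
      exact hTc (hd.trans (Subgroup.orderOf_dvd_natCard T hz))
  set T' := T.map K.subtype with hT'
  haveI hT'n : T'.Normal := ⟨by
    rintro _ ⟨z, hz, rfl⟩ g
    refine ⟨⟨g * (z : G) * g⁻¹, (inferInstance : K.Normal).conj_mem _ z.2 g⟩, ?_, rfl⟩
    refine (hTmem _).1 ?_
    rw [← Subgroup.orderOf_coe]
    show ¬ p ∣ orderOf (g * (z : G) * g⁻¹)
    have he := (MulAut.conj g).orderOf_eq (z : G)
    rw [MulAut.conj_apply] at he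
    rw [he, Subgroup.orderOf_coe]
    exact (hTmem z).2 hz⟩
  have hbot : T' = ⊥ := H.eq_bot_of_not_dvd T' (by
    rw [hT', Subgroup.card_map_of_injective K.subtype_injective]; exact hTc)
  have hTbot : T = ⊥ := by
    rw [hT', Subgroup.map_eq_bot_iff_of_injective _ K.subtype_injective] at hbot
    exact hbot
  rw [hTbot, Subgroup.index_bot] at hidx'
  refine H.not_normal ?_
  have : (P : Subgroup G) = K := Subgroup.eq_of_le_of_card_ge hPK (by
    rw [hidx', show Nat.card (P : Subgroup G) = p from H.card_P])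
  rw [this]; infer_instance

theorem Hyp.not_dvd_stabilizer (a : α) : ¬ p ∣ Nat.card (stabilizer G a) := by
  intro h
  haveI := H.hprim.toIsPretransitive
  have h1 := (stabilizer G a).card_mul_index
  rw [MulAction.index_stabilizer_of_transitive, Nat.card_eq_fintype_card (α := α), H.hα] at h1
  apply H.not_sq_dvd
  rw [← h1, show Nat.card (stabilizer G a) * (2 * p) = 2 * (Nat.card (stabilizer G a) * p) by ring]
  exact dvd_mul_of_dvd_right (Nat.mul_dvd_mul h dvd_rfl) _

theorem Hyp.smul_ne {g : G} (hg : p ∣ orderOf g) (a : α) : g • a ≠ a := fun h =>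
  H.not_dvd_stabilizer a (hg.trans (Subgroup.orderOf_dvd_natCard _ (mem_stabilizer_iff.2 h)))

end Cfsg.Agent.Blocks.TwicePrime
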