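import Cfsg.Agent.Blocks.TwicePrime.Moments
import Cfsg.Agent.Blocks.TwicePrime.Setup
import Cfsg.Agent.Screen.BrauerP.Degrees
import Cfsg.Agent.PermGroups.OrbitalAlgebra
import Cfsg.Agent.Chars.GaloisValues

/-!
The order of a primitive, not doubly transitive group of degree `2p` whose Sylow normalizer has
order `2p`.
-/

set_option autoImplicit false
set_option linter.style.haveILetI false
set_option maxHeartbeats 1600000

namespace Cfsg.Agent.Blocks.TwicePrime

open Cfsg Cfsg.Agent MulAction Screen.BrauerP
open scoped ComplexConjugate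

universe u

variable {G : Type u} {α : Type*} [Group G] [Fintype G] [Fintype α] [MulAction G α]
  [FaithfulSMul G α]
variable {p : ℕ} [hp : Fact p.Prime] {P : Sylow p G} (H : Hyp G α p P)
include H

theorem Hyp.relIndex_eq_two :
    (Subgroup.centralizer ((P : Subgroup G) : Set G)).relIndex
      (Subgroup.normalizer ((P : Subgroup G) : Set G)) = 2 := by
  haveI : IsCyclic (P : Subgroup G) := isCyclic_of_prime_card H.card_P
  have h1 := two_le_relIndex_of_perfect H.perfect P H.card_P
  have hle : (P : Subgroup G) ≤ Subgroup.centralizer ((P : Subgroup G) : Set G) :=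
    Subgroup.le_centralizer (P : Subgroup G)
  have h2 := Subgroup.relIndex_dvd_of_le_left (Subgroup.normalizer ((P : Subgroup G) : Set G)) hle
  have h3 : (P : Subgroup G).relIndex (Subgroup.normalizer ((P : Subgroup G) : Set G)) = 2 := by
    have h := Subgroup.card_mul_index
      ((P : Subgroup G).subgroupOf (Subgroup.normalizer ((P : Subgroup G) : Set G)))
    rw [H.hN, Nat.card_congr (Subgroup.subgroupOfEquivOfLe (Subgroup.le_normalizer)).toEquiv,
      show Nat.card (P : Subgroup G) = p from H.card_P, mul_comm 2 p] at h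
    exact Nat.eq_of_mul_eq_mul_left hp.out.pos h
  rw [h3] at h2
  have := Nat.le_of_dvd (by norm_num) h2
  omega

theorem Hyp.centralizer_eq : Subgroup.centralizer ((P : Subgroup G) : Set G) = (P : Subgroup G) := by
  haveI : IsCyclic (P : Subgroup G) := isCyclic_of_prime_card H.card_P
  refine (Subgroup.eq_of_le_of_card_ge (Subgroup.le_centralizer (P : Subgroup G)) ?_).symm
  have h := Subgroup.card_mul_index ((Subgroup.centralizer ((P : Subgroup G) : Set G)).subgroupOf
    (Subgroup.normalizer ((P : Subgroup G) : Set G)))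
  rw [Nat.card_congr (Subgroup.subgroupOfEquivOfLe (Subgroup.centralizer_le_normalizer _)).toEquiv]
    at h
  change _ * (Subgroup.centralizer ((P : Subgroup G) : Set G)).relIndex _ = _ at h
  rw [H.relIndex_eq_two, H.hN] at h
  rw [show Nat.card (P : Subgroup G) = p from H.card_P]
  omega

/-- The singular elements have order `p`. -/
theorem Hyp.orderOf_eq {g : G} (hg : p ∣ orderOf g) : orderOf g = p := by
  set u := g ^ (orderOf g / p) with hu
  have huo : orderOf u = p := orderOf_pow_orderOf_div (orderOf_pos g).ne' hg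
  obtain ⟨a, ha⟩ := H.exists_conj huo
  have hcg : a * g * a⁻¹ ∈ Subgroup.centralizer ((P : Subgroup G) : Set G) := by
    rw [Subgroup.mem_centralizer_iff]
    intro z hz
    obtain ⟨w, hw, rfl⟩ := ha z hz
    obtain ⟨i, rfl⟩ := Subgroup.mem_zpowers_iff.1 hw
    have hc : Commute (u ^ i) g := ((Commute.refl g).pow_left _).zpow_left i
    calc a * u ^ i * a⁻¹ * (a * g * a⁻¹) = a * (u ^ i * g) * a⁻¹ := by group
      _ = a * (g * u ^ i) * a⁻¹ := by rw [hc.eq]
      _ = a * g * a⁻¹ * (a * u ^ i * a⁻¹) := by group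
  rw [H.centralizer_eq] at hcg
  have h2 := Subgroup.orderOf_dvd_natCard _ hcg
  rw [show Nat.card (P : Subgroup G) = p from H.card_P] at h2
  have he := (MulAut.conj a).orderOf_eq g
  rw [MulAut.conj_apply] at he
  rw [he] at h2
  exact Nat.dvd_antisymm h2 hg

/-- The number of singular elements. -/
theorem Hyp.count :
    2 * p * (Finset.univ.filter fun g : G => p ∣ orderOf g).card = Nat.card G * (p - 1) := by
  classical
  haveI : Fintype (Sylow p G) := Fintype.ofFinite _
  have hcard : ∀ Q : Sylow p G, Nat.card (Q : Subgroup G) = p := fun Q => by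
    rw [Q.card_eq_multiplicity]
    have := P.card_eq_multiplicity
    rw [H.card_P] at this
    exact this.symm
  have hgen : ∀ (Q : Sylow p G) (g : G), g ∈ (Q : Subgroup G) → g ≠ 1 →
      orderOf g = p ∧ (Q : Subgroup G) = Subgroup.zpowers g := by
    intro Q g hg hg1
    have h1 := Subgroup.orderOf_dvd_natCard _ hg
    rw [hcard Q] at h1
    have ho : orderOf g = p := ((Nat.dvd_prime hp.out).1 h1).resolve_left
      fun h => hg1 (orderOf_eq_one_iff.1 h)
    exact ⟨ho, (Subgroup.eq_of_le_of_card_ge (Subgroup.zpowers_le.2 hg)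
      (by rw [hcard Q, Nat.card_zpowers, ho])).symm⟩
  let f : Sylow p G → Finset G := fun Q =>
    (Finset.univ.filter fun g : G => g ∈ (Q : Subgroup G)).erase 1
  have hf : ∀ Q, (f Q).card = p - 1 := fun Q => by
    have hq : (Finset.univ.filter fun g : G => g ∈ (Q : Subgroup G)).card = p := by
      refine Eq.trans ?_ (hcard Q)
      rw [Nat.card_eq_fintype_card, Fintype.card_subtype]
    rw [Finset.card_erase_of_mem (by simp), hq]
  have hS : (Finset.univ.filter fun g : G => p ∣ orderOf g) = Finset.univ.biUnion f := by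
    ext g
    simp only [Finset.mem_filter, Finset.mem_univ, true_and, Finset.mem_biUnion, Finset.mem_erase,
      f]
    constructor
    · intro hg
      have ho := H.orderOf_eq hg
      have hc : Nat.card (Subgroup.zpowers g) = p ^ (Nat.card G).factorization p := by
        rw [Nat.card_zpowers, ho, ← P.card_eq_multiplicity, H.card_P]
      refine ⟨Sylow.ofCard _ hc, fun h => ?_, ?_⟩
      · rw [h, orderOf_one] at ho; exact hp.out.ne_one ho.symm
      · rw [Sylow.coe_ofCard]; exact Subgroup.mem_zpowers g
    · rintro ⟨Q, hg1, hg⟩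
      rw [(hgen Q g hg hg1).1]
  have hdisj : ∀ Q ∈ (Finset.univ : Finset (Sylow p G)), ∀ R ∈ (Finset.univ : Finset (Sylow p G)),
      Q ≠ R → Disjoint (f Q) (f R) := by
    intro Q _ R _ hne
    rw [Finset.disjoint_left]
    intro g hg hg'
    simp only [f, Finset.mem_erase, Finset.mem_filter, Finset.mem_univ, true_and] at hg hg'
    exact hne (Sylow.ext (((hgen Q g hg.2 hg.1).2).trans ((hgen R g hg'.2 hg'.1).2).symm))
  rw [hS, Finset.card_biUnion hdisj, Finset.sum_congr rfl fun Q _ => hf Q, Finset.sum_const,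
    Finset.card_univ, ← Nat.card_eq_fintype_card, smul_eq_mul]
  have h := (Subgroup.normalizer ((P : Subgroup G) : Set G)).card_mul_index
  rw [show (Subgroup.normalizer ((P : Subgroup G) : Set G)).index = Nat.card (Sylow p G) from
    P.card_eq_index_normalizer.symm, H.hN] at h
  rw [← mul_assoc, h]

variable (α) in
omit H in
/-- The permutation character. -/
noncomputable def pic (g : G) : ℂ := (Nat.card (fixedBy α g) : ℂ)

omit H [FaithfulSMul G α] in
theorem isCharacter_pic : IsCharacter G (pic (G := G) α) := by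
  classical
  show IsCharacter G (fun g : G => (Nat.card (fixedBy α g) : ℂ))
  rw [PermGroups.fixFun_eq]
  exact Chars.isCharacter_of_rep _

omit H [FaithfulSMul G α] in
theorem pic_one : pic α (1 : G) = (Fintype.card α : ℂ) := by
  rw [pic, MulAction.fixedBy_one_eq_univ, Nat.card_univ, Nat.card_eq_fintype_card]

theorem Hyp.pic_eq_zero {g : G} (hg : p ∣ orderOf g) : pic α g = 0 := by
  haveI : IsEmpty (fixedBy α g) := ⟨fun a => H.smul_ne hg a.1 a.2⟩
  rw [pic, Nat.card_of_isEmpty, Nat.cast_zero]

omit H [FaithfulSMul G α] in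
/-- Powers prime to the group order fix the same points. -/
theorem pic_pow {k : ℕ} (hk : k.Coprime (Nat.card G)) (g : G) : pic α (g ^ k) = pic α g := by
  obtain ⟨m, hm⟩ := exists_pow_eq_self_of_coprime
    (show k.Coprime (orderOf g) from hk.coprime_dvd_right (orderOf_dvd_natCard g))
  have h : fixedBy α (g ^ k) = fixedBy α g := by
    ext a
    simp only [MulAction.mem_fixedBy]
    have key : ∀ (x : G) (j : ℕ), x • a = a → x ^ j • a = a := fun x j hx => by
      induction j with
      | zero => rw [pow_zero, one_smul]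
      | succ j ih => rw [pow_succ, mul_smul, hx, ih]
    refine ⟨fun h => ?_, fun h => key g k h⟩
    have := key (g ^ k) m h
    rwa [hm] at this
  rw [pic, pic, h]

theorem Hyp.card_eq (hnot2 : ¬ IsMultiplyPretransitive G α 2) :
    Nat.card G = p * (p - 1) * (p - 2) := by
  classical
  haveI := H.hprim.toIsPretransitive
  haveI : Nonempty α := H.nonempty
  have hp5 := H.hp5
  obtain ⟨x, hx, hPx, ⟨D⟩⟩ := exists_pdata (show p ≠ 2 by omega) P H.card_P
  have hCx : Subgroup.centralizer ((P : Subgroup G) : Set G) =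
      Subgroup.centralizer ({x} : Set G) := by
    rw [hPx, Subgroup.zpowers_eq_closure, Subgroup.centralizer_closure]
  have hNx : Subgroup.normalizer ((P : Subgroup G) : Set G) =
      Subgroup.normalizer ((Subgroup.zpowers x : Subgroup G) : Set G) := by rw [hPx]
  have he : D.e = 2 := by
    rw [← D.relIndex, ← hCx, ← hNx]; exact H.relIndex_eq_two
  have het := D.mul_et
  rw [he] at het
  have ht2 : 2 ≤ D.t := by omega
  -- the non-principal member
  have hX2 : D.X.card = 2 := by rw [D.card_X, he]
  obtain ⟨μ, hμ⟩ := Finset.card_eq_one.1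
    (by rw [Finset.card_erase_of_mem D.one_mem, hX2] : (D.X.erase (Blocks.oneChar G)).card = 1)
  have hμX : μ ∈ D.X := Finset.mem_of_mem_erase (by rw [hμ]; exact Finset.mem_singleton_self μ)
  have hμ1 : μ ≠ Blocks.oneChar G :=
    Finset.ne_of_mem_erase (by rw [hμ]; exact Finset.mem_singleton_self μ)
  have hrel : ∀ θ ∈ D.Y, ∀ g : G, ¬ p ∣ orderOf g →
      1 + (D.ε μ : ℂ) * (μ : G → ℂ) g + (D.W : ℂ) * (θ : G → ℂ) g = 0 := by
    intro θ hθ g hg
    have h := D.relation g hg θ hθ
    rw [← Finset.add_sum_erase _ _ D.one_mem, hμ, Finset.sum_singleton, D.one_sign] at h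
    simpa [Blocks.coe_oneChar] using h
  obtain ⟨θ₀, hθ₀⟩ := D.exists_Y
  -- the multiplicities in the permutation character
  set π := pic (G := G) α with hπ
  have hπc : IsCharacter G π := isCharacter_pic
  choose m hm using fun ψ : IrrCharacter G =>
    Chars.exists_classInner_eq_nat hπc (Chars.irr_isCharacter ψ)
  have hm1 : m (Blocks.oneChar G) = 1 := by
    have h : classInner π ((Blocks.oneChar G : IrrCharacter G) : G → ℂ) = 1 := by
      rw [hπ, show pic (G := G) α = fun g : G => (Nat.card (fixedBy α g) : ℂ) from rfl,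
        PermGroups.fixFun_eq]
      exact PermGroups.classInner_one_of_transitive
    rw [hm] at h
    exact_mod_cast h
  have hzero : ∀ g : G, p ∣ orderOf g → π g = 0 := fun g hg => H.pic_eq_zero hg
  have hmY : ∀ θ ∈ D.Y, m θ = m θ₀ := by
    intro θ hθ
    have h : classInner π (θ : G → ℂ) = classInner π (θ₀ : G → ℂ) := by
      simp only [Chars.classInner_def]
      congr 1
      refine Finset.sum_congr rfl fun g _ => ?_
      by_cases hg : p ∣ orderOf g
      · rw [hzero g hg, zero_mul, zero_mul]
      · rw [D.Y_reg θ hθ θ₀ hθ₀ g hg]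
    rw [hm, hm] at h
    exact_mod_cast h
  have hab : (1 : ℤ) + D.ε μ * m μ + D.W * m θ₀ = 0 := by
    have h : classInner π ((Blocks.oneChar G : IrrCharacter G) : G → ℂ) +
        (D.ε μ : ℂ) * classInner π (μ : G → ℂ) + (D.W : ℂ) * classInner π (θ₀ : G → ℂ) = 0 := by
      simp only [Chars.classInner_def, Finset.mul_sum, ← Finset.sum_add_distrib]
      refine Finset.sum_eq_zero fun g _ => ?_
      by_cases hg : p ∣ orderOf g
      · rw [hzero g hg]; ring
      · have h := congrArg conj (hrel θ₀ hθ₀ g hg)
        simp only [map_add, map_one, map_mul, map_intCast, map_zero] at h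
        have h1 : conj (((Blocks.oneChar G : IrrCharacter G) : G → ℂ) g) = 1 := by
          simp [Blocks.coe_oneChar]
        rw [h1]
        linear_combination (Nat.card G : ℂ)⁻¹ * π g * h
    rw [hm, hm, hm, hm1] at h
    exact_mod_cast h
  set d := charDegree (μ : G → ℂ) with hd
  set dθ := charDegree (θ₀ : G → ℂ) with hdθ
  have hdrel : (1 : ℤ) + D.ε μ * d + D.W * dθ = 0 := by
    have h := hrel θ₀ hθ₀ 1 (by rw [orderOf_one]; exact hp.out.not_dvd_one)
    rw [apply_one_eq_deg, apply_one_eq_deg] at h
    exact_mod_cast h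
  have hsum : 1 + m μ * d + D.t * (m θ₀ * dθ) ≤ 2 * p := by
    have hπ1 : π 1 = ((2 * p : ℕ) : ℂ) := by rw [hπ, pic_one, H.hα]
    have h := sum_mult_le hπc hπ1 (insert (Blocks.oneChar G) (insert μ D.Y)) m fun ψ _ => hm ψ
    rw [Finset.sum_insert (by simp [hμ1.symm, D.one_notMem]),
      Finset.sum_insert (Finset.disjoint_left.1 D.disj hμX),
      Finset.sum_congr rfl (g := fun _ => m θ₀ * dθ) fun θ hθ => by
        rw [hmY θ hθ, D.deg_Y_eq hθ hθ₀],
      Finset.sum_const, D.card_Y, smul_eq_mul, hm1, one_mul, ← add_assoc] at h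
    have h1 : charDegree ((Blocks.oneChar G : IrrCharacter G) : G → ℂ) = 1 := by
      simp [Blocks.coe_oneChar, charDegree]
    rwa [h1] at h
  have hd2 : 2 ≤ d := by
    rcases Nat.lt_or_ge d 2 with h | h
    · exfalso
      have := deg_pos μ
      exact hμ1 (eq_one_of_deg_one H.perfect μ (by omega))
    · exact h
  have hdθ2 : 2 ≤ dθ := by
    rcases Nat.lt_or_ge dθ 2 with h | h
    · exfalso
      have := deg_pos θ₀
      exact D.one_notMem (eq_one_of_deg_one H.perfect θ₀ (by omega) ▸ hθ₀)
    · exact h
  have hXd : (p : ℤ) ∣ D.ε μ - d := Int.modEq_iff_dvd.1 (D.X_deg μ hμX)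
  have hYd : (p : ℤ) ∣ -((D.e : ℤ) * D.W) - dθ := Int.modEq_iff_dvd.1 (D.Y_deg θ₀ hθ₀)
  rw [he] at hYd
  -- the exceptional family does not occur
  have hb : m θ₀ = 0 := by
    by_contra hb
    have h1 : D.t * dθ ≤ D.t * (m θ₀ * dθ) :=
      Nat.mul_le_mul_left _ (Nat.le_mul_of_pos_left _ (Nat.pos_of_ne_zero hb))
    have h2 : dθ ≤ 4 := by
      by_contra h
      have h3 : D.t * 5 ≤ D.t * dθ := Nat.mul_le_mul_left _ (by omega)
      omega
    rcases D.sign_W with hW | hW
    · rw [hW] at hYd hdrel hab
      obtain ⟨k, hk⟩ := hYd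
      have hk1 : k = -1 := by
        have hp0 : (0 : ℤ) ≤ p := Int.natCast_nonneg p
        have h5 : k < 0 := by
          by_contra h
          have := mul_nonneg hp0 (not_lt.1 h)
          omega
        have h6 : -2 < k := by
          by_contra h
          have := mul_le_mul_of_nonneg_left (not_lt.1 h) hp0
          omega
        omega
      rw [hk1] at hk
      push_cast at hk
      have hp' : p = 5 := by
        by_contra hne
        have : p ≠ 6 := fun h => by rw [h] at hp; exact absurd hp.out (by norm_num)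
        omega
      have hdθ3 : dθ = 3 := by omega
      rcases D.sign μ hμX with hε | hε <;> rw [hε] at hab hdrel
      · omega
      · have hd4 : d = 4 := by omega
        have hm2 : 2 ≤ m μ := by omega
        have hmd : 2 * 4 ≤ m μ * d := Nat.mul_le_mul hm2 (by omega)
        have htd : 2 * 3 ≤ D.t * dθ := Nat.mul_le_mul ht2 (by omega)
        omega
    · rw [hW] at hYd hdrel
      obtain ⟨k, hk⟩ := hYd
      have hk0 : k = 0 := by
        have hp0 : (0 : ℤ) ≤ p := Int.natCast_nonneg p
        have h5 : k < 1 := by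
          by_contra h
          have := mul_le_mul_of_nonneg_left (not_lt.1 h) hp0
          omega
        have h6 : -1 < k := by
          by_contra h
          have := mul_le_mul_of_nonneg_left (not_lt.1 h) hp0
          omega
        omega
      rw [hk0] at hk
      rcases D.sign μ hμX with hε | hε <;> rw [hε] at hdrel <;> omega
  rw [hb, Nat.cast_zero, mul_zero, add_zero] at hab
  have hεm : D.ε μ = -1 ∧ m μ = 1 := by
    rcases D.sign μ hμX with hε | hε <;> rw [hε] at hab <;> constructor <;> omega
  rw [hεm.1] at hXd hdrel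
  rw [hεm.2, one_mul, hb, zero_mul, mul_zero, add_zero] at hsum
  have hW : D.W = 1 := by
    rcases D.sign_W with h | h
    · exact h
    · rw [h] at hdrel; omega
  rw [hW] at hdrel
  -- the two possible degrees
  have hd' : d = p - 1 ∨ d = 2 * p - 1 := by
    obtain ⟨k, hk⟩ := hXd
    have hp0 : (0 : ℤ) ≤ p := Int.natCast_nonneg p
    have h5 : k < 0 := by
      by_contra h
      have := mul_nonneg hp0 (not_lt.1 h)
      omega
    have h6 : -3 < k := by
      by_contra h
      have := mul_le_mul_of_nonneg_left (not_lt.1 h) hp0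
      omega
    rcases (show k = -1 ∨ k = -2 by omega) with h | h <;> rw [h] at hk <;> push_cast at hk <;>
      omega
  have hdp : d = p - 1 := by
    rcases hd' with h | h
    · exact h
    exfalso
    apply hnot2
    have hne : Blocks.oneChar G ∉ ({μ} : Finset (IrrCharacter G)) := by simp [hμ1.symm]
    have hπeq := eq_sum_of_mult hπc {Blocks.oneChar G, μ} (fun ψ hψ => by
      rw [hm]
      rcases Finset.mem_insert.1 hψ with h' | h'
      · rw [h', hm1]; norm_num
      · rw [Finset.mem_singleton.1 h', hεm.2]; norm_num) (by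
      have h1 : charDegree ((Blocks.oneChar G : IrrCharacter G) : G → ℂ) = 1 := by
        simp [Blocks.coe_oneChar, charDegree]
      rw [Finset.sum_insert hne, Finset.sum_singleton, h1, ← hd, hπ, pic_one, H.hα, h]
      congr 1
      omega)
    rw [Finset.sum_insert hne, Finset.sum_singleton] at hπeq
    have h2 : classInner π π = 2 := by
      conv_lhs => arg 2; rw [hπeq]
      rw [Chars.classInner_add_right, hm, hm, hm1, hεm.2]
      norm_num
    have h3 : Nat.card (orbitRel.Quotient G (α × α)) = 2 := by
      have h := PermGroups.sum_natCard_fixedBy (G := G) (Ω := α × α)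
      simp only [PermGroups.natCard_fixedBy_prod] at h
      have h4 : (Nat.card G : ℂ) * classInner π π =
          ((∑ g : G, Nat.card (fixedBy α g) * Nat.card (fixedBy α g) : ℕ) : ℂ) := by
        rw [card_mul_classInner, Nat.cast_sum]
        refine Finset.sum_congr rfl fun g _ => ?_
        simp [hπ, pic]
      rw [h, h2, Nat.cast_mul, mul_comm] at h4
      have h5 : ((2 : ℕ) : ℂ) = (Nat.card (orbitRel.Quotient G (α × α)) : ℂ) := by
        rw [Nat.cast_ofNat]
        exact mul_right_cancel₀ Chars.card_ne_zero h4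
      exact (by exact_mod_cast h5.symm)
    rw [is_two_pretransitive_iff]
    intro a b c e hab' hce
    by_contra hno
    haveI : Fintype (orbitRel.Quotient G (α × α)) := Fintype.ofFinite _
    let q : α × α → orbitRel.Quotient G (α × α) := fun z => Quotient.mk'' z
    have hq : ∀ y z : α × α, q y = q z → ∃ g : G, g • z = y := fun y z h =>
      orbitRel_apply.1 (Quotient.eq''.1 h)
    have h01 : q (a, a) ≠ q (a, b) := fun h => by
      obtain ⟨g, hg⟩ := hq _ _ h
      exact hab' (smul_left_cancel g ((congrArg Prod.fst hg).trans (congrArg Prod.snd hg).symm))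
    have h02 : q (a, a) ≠ q (c, e) := fun h => by
      obtain ⟨g, hg⟩ := hq _ _ h
      exact hce (smul_left_cancel g ((congrArg Prod.fst hg).trans (congrArg Prod.snd hg).symm))
    have h12 : q (c, e) ≠ q (a, b) := fun h => by
      obtain ⟨g, hg⟩ := hq _ _ h
      exact hno ⟨g, congrArg Prod.fst hg, congrArg Prod.snd hg⟩
    rw [Nat.card_eq_fintype_card] at h3
    have h6 : ({q (a, a), q (a, b), q (c, e)} : Finset (orbitRel.Quotient G (α × α))).card = 3 := by
      rw [Finset.card_insert_of_notMem (by simp [h01, h02]),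
        Finset.card_insert_of_notMem (by simp [h12.symm]), Finset.card_singleton]
    have h7 := Finset.card_le_univ
      ({q (a, a), q (a, b), q (c, e)} : Finset (orbitRel.Quotient G (α × α)))
    omega
  -- the only constituent of this degree, so rational
  have huniq : ∀ ν : IrrCharacter G, charDegree (ν : G → ℂ) = p - 1 → m ν ≠ 0 → ν = μ := by
    intro ν hν hmν
    by_contra hne
    obtain ⟨m', hm', hsum'⟩ := Chars.exists_eq_sum_nsmul hπc
    have hmm : ∀ ψ, m' ψ = m ψ := fun ψ => by
      have := (hm' ψ).symm.trans (hm ψ); exact_mod_cast this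
    have hν1 : ν ≠ Blocks.oneChar G := fun h => by
      rw [h] at hν; simp [Blocks.coe_oneChar, charDegree] at hν; omega
    set T : Finset (IrrCharacter G) := {Blocks.oneChar G, μ, ν} with hT
    have h1 := congrFun hsum' 1
    rw [hπ, pic_one, H.hα, Finset.sum_apply] at h1
    simp only [Pi.smul_apply, apply_one_eq_deg, nsmul_eq_mul, hmm] at h1
    have h2 : 2 * p = ∑ ψ : IrrCharacter G, m ψ * charDegree (ψ : G → ℂ) := by exact_mod_cast h1
    rw [← Finset.sum_add_sum_compl T, hT, Finset.sum_insert (by simp [hμ1.symm, hν1.symm]),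
      Finset.sum_insert (by simp [Ne.symm hne]), Finset.sum_singleton] at h2
    have h3 : charDegree ((Blocks.oneChar G : IrrCharacter G) : G → ℂ) = 1 := by
      simp [Blocks.coe_oneChar, charDegree]
    rw [h3, hm1, hεm.2, ← hd, hdp, hν] at h2
    have h4 : p - 1 ≤ m ν * (p - 1) := Nat.le_mul_of_pos_left _ (Nat.pos_of_ne_zero hmν)
    have h5 : m ν = 1 := by
      by_contra h
      have : 2 * (p - 1) ≤ m ν * (p - 1) := Nat.mul_le_mul_right _ (by omega)
      omega
    rw [h5, ← hT] at h2
    have h6 : ∑ ψ ∈ Tᶜ, m ψ * charDegree (ψ : G → ℂ) = 1 := by omega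
    obtain ⟨ψ, hψ, hψ0⟩ : ∃ ψ ∈ Tᶜ, m ψ * charDegree (ψ : G → ℂ) ≠ 0 :=
      Finset.exists_ne_zero_of_sum_ne_zero (by omega)
    have hψ1 : m ψ * charDegree (ψ : G → ℂ) ≤ 1 :=
      h6 ▸ Finset.single_le_sum (f := fun ψ : IrrCharacter G => m ψ * charDegree (ψ : G → ℂ))
        (fun _ _ => Nat.zero_le _) hψ
    have hψd : charDegree (ψ : G → ℂ) = 1 := by
      have := deg_pos ψ
      have : charDegree (ψ : G → ℂ) ≤ m ψ * charDegree (ψ : G → ℂ) :=
        Nat.le_mul_of_pos_left _ (Nat.pos_of_ne_zero fun h => hψ0 (by rw [h, zero_mul]))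
      omega
    rw [eq_one_of_deg_one H.perfect ψ hψd] at hψ
    exact (Finset.mem_compl.1 hψ) (by simp [hT])
  have hint : ∀ g : G, ∃ z : ℤ, (μ : G → ℂ) g = z := by
    intro g
    refine Chars.exists_int_of_fixed (Chars.isIntegral_of_isCharacter (Chars.irr_isCharacter μ) g)
      fun σ => ?_
    obtain ⟨k, hk, hσk⟩ := Chars.exists_aut_apply (G := G) σ
    set ν : IrrCharacter G := ⟨fun g => σ ((μ : G → ℂ) g), OddChar.isIrrCharacter_map σ μ.2⟩
    have hνk : ∀ g, (ν : G → ℂ) g = (μ : G → ℂ) (g ^ k) := fun g =>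
      hσk _ (Chars.irr_isCharacter μ) g
    have hνd : charDegree (ν : G → ℂ) = p - 1 := by
      have h := hνk 1
      rw [one_pow, apply_one_eq_deg, apply_one_eq_deg, ← hd, hdp] at h
      exact_mod_cast h
    have hνm : m ν ≠ 0 := by
      have h : classInner π (ν : G → ℂ) = classInner π (μ : G → ℂ) := by
        simp only [Chars.classInner_def]
        congr 1
        refine Fintype.sum_equiv (powCoprime hk.symm) _ _ fun g => ?_
        rw [hνk, powCoprime_apply, hπ, pic_pow hk]
      rw [hm, hm, hεm.2] at h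
      have : m ν = 1 := by exact_mod_cast h
      omega
    have h := huniq ν hνd hνm
    show (ν : G → ℂ) g = (μ : G → ℂ) g
    rw [h]
  -- values
  have hμdeg : (μ : G → ℂ) 1 = ((p - 1 : ℕ) : ℂ) := by rw [apply_one_eq_deg, ← hd, hdp]
  have hsing : ∀ g : G, p ∣ orderOf g → (μ : G → ℂ) g = -1 := by
    intro g hg
    have ho := H.orderOf_eq hg
    obtain ⟨a, ha⟩ := H.exists_conj ho
    obtain ⟨w, hw, hwx⟩ := ha x (by rw [hPx]; exact Subgroup.mem_zpowers x)
    have hx1 : x ≠ 1 := fun h => hp.out.ne_one (by rw [← hx, h, orderOf_one])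
    have hgen : Subgroup.zpowers w = Subgroup.zpowers g := by
      refine Subgroup.eq_of_le_of_card_ge (Subgroup.zpowers_le.2 hw) ?_
      rw [Nat.card_zpowers, Nat.card_zpowers, ho]
      have he' := (MulAut.conj a).orderOf_eq w
      rw [MulAut.conj_apply, hwx, hx] at he'
      omega
    have hgy : a * g * a⁻¹ ∈ Subgroup.zpowers x := by
      have hgw : g ∈ Subgroup.zpowers w := by rw [hgen]; exact Subgroup.mem_zpowers g
      obtain ⟨i, hi⟩ := Subgroup.mem_zpowers_iff.1 hgw
      refine Subgroup.mem_zpowers_iff.2 ⟨i, ?_⟩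
      rw [← hwx, conj_zpow, hi]
    have h := D.X_value μ hμX _ hgy (fun h => by
        rw [conj_eq_one_iff] at h
        rw [h, orderOf_one] at ho
        exact hp.out.ne_one ho.symm) 1 (Subgroup.one_mem _)
      (by rw [orderOf_one]; exact hp.out.not_dvd_one)
    rw [mul_one, hεm.1, Chars.isCharacter_conj_apply (Chars.irr_isCharacter μ)] at h
    simpa using h
  have hfaith : ∀ g : G, (μ : G → ℂ) g = (μ : G → ℂ) 1 → g = 1 := by
    intro g hg
    haveI := Chars.charKer_normal (Chars.irr_isCharacter μ)
    have hK : Chars.charKer (Chars.irr_isCharacter μ) = ⊥ := by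
      refine H.eq_bot_of_not_dvd _ fun hd' => ?_
      obtain ⟨⟨v, hv⟩, hvo⟩ := exists_prime_orderOf_dvd_card' p hd'
      rw [← Subgroup.orderOf_coe] at hvo
      have h1 : (μ : G → ℂ) v = (μ : G → ℂ) 1 := hv
      rw [hsing v (by rw [show orderOf v = p from hvo]), hμdeg] at h1
      have h2 := congrArg Complex.re h1
      simp at h2
      have : (0 : ℝ) ≤ ((p - 1 : ℕ) : ℝ) := Nat.cast_nonneg _
      linarith
    have : g ∈ Chars.charKer (Chars.irr_isCharacter μ) := hg
    rw [hK, Subgroup.mem_bot] at this
    exact this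
  refine TwicePrime.card_eq hp.out hp5 μ.2 θ₀.2 hμdeg hint hfaith hsing (fun g hg => ?_) H.count
  have h := hrel θ₀ hθ₀ g hg
  rw [hεm.1, hW] at h
  push_cast at h
  linear_combination h

end Cfsg.Agent.Blocks.TwicePrime
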